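import Cfsg.Agent.SuzType.Partner

/-!
The centralizer of `z` and of a non-singular standard involution, and the two classes of involutions.
-/

set_option autoImplicit false
set_option synthInstance.maxSize 2000
set_option linter.unusedSectionVars false

namespace CfsgLib.SuzType

open Cfsg

variable {G : Type*} [Group G] [Finite G] {z s g : G} {Q : Subgroup G} {pr : G → V} {act : G → Iso}

/-- An element with an Eichler image at `e0`. -/
def EType (act : G → Iso) (k : G) : Prop := ∃ w, B w e0 = 0 ∧ ∀ v, app (act k) v = E e0 w v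

namespace Frame

variable (F : Frame z s g Q pr act)
include F

theorem fix_e0 {t k : G} (hT : IsT z act t) (hk : k * z = z * k) (hkt : k * t = t * k) :
    app (act k) e0 = e0 := by
  obtain ⟨y, hy⟩ := range_four e0 (Or.inr (Or.inl rfl))
  have hm : act k * act t = act t * act k := by
    rw [← F.setup.act_mul _ _ hk hT.comm, hkt, F.setup.act_mul _ _ hT.comm hk]
  have e : E e0 e4 (app (act k) y) + app (act k) y = app (act k) e0 := by
    calc E e0 e4 (app (act k) y) + app (act k) y = app (act k) (E e0 e4 y) + app (act k) y := by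
          rw [← hT.map (app (act k) y), ← app_mul, ← hm, app_mul, hT.map y]
      _ = app (act k) e0 := by rw [← app_add, hy]
  rcases range_four_cases (app (act k) y) with c | c | c | c <;> rw [e] at c
  · exact absurd (app_injective _ (c.trans (app_zero _).symm)) e0_ne
  · exact c
  all_goals
    exfalso
    have := app_q (act k) e0
    rw [c] at this
    exact absurd this (by decide)

theorem etype_of_centralizing {t k : G} (hT : IsT z act t) (hk : k * z = z * k) (hkt : k * t = t * k)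
    (hks : k * s = s * k) : EType act k := by
  obtain ⟨u, hu, hu2, eu⟩ := F.exists_u
  obtain ⟨hxQ, hv0, hv4, hqv⟩ := F.partner hT hu hu2 eu
  set x := u⁻¹ * t with hx
  set f := act k with hf
  have h0 : app f e0 = e0 := F.fix_e0 hT hk hkt
  have h4 : near (app f e4) e4 := by
    refine E_inj (by rw [← h0, app_B, B_comm, B_e0_e4]) (by rw [B_comm, B_e0_e4]) fun v => ?_
    have hm : act k * act t = act t * act k := by
      rw [← F.setup.act_mul _ _ hk hT.comm, hkt, F.setup.act_mul _ _ hT.comm hk]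
    have := congrArg (fun m => app m (app f⁻¹ v)) hm
    simp only [app_mul, hT.map, ← hf, app_E, app_app_inv, h0] at this
    exact this
  have hku : u⁻¹ * (k * u * k⁻¹) ∈ Q := by
    refine F.setup.mul_inv_mem hu.2 (F.setup.comm_conj hk hu.2) (iso_ext fun v => ?_)
    rw [F.setup.act_conj hk hu.2, app_mul, app_mul, eu, eu, app_E, app_app_inv, h0]
    exact E_congr (near_symm h4) q_e0 B_e0_e4 v
  have hkU := F.inU_mul (F.inU_inv hu) (F.inU_normalized hk hks hu)
  have hxx : x = u⁻¹ * (k * u * k⁻¹) * (k * x * k⁻¹) := by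
    have e : k * t * k⁻¹ = t := mul_inv_eq_iff_eq_mul.2 hkt
    rw [hx, show u⁻¹ * (k * u * k⁻¹) * (k * (u⁻¹ * t) * k⁻¹) = u⁻¹ * (k * t * k⁻¹) by group, e]
  have hv : near (app f (pr x)) (pr x) := by
    have e : pr x = pr (u⁻¹ * (k * u * k⁻¹)) + app f (pr x) := by
      conv_lhs => rw [hxx]
      rw [F.setup.pr_mul _ hku _ (F.setup.conj_mem hk hxQ), F.setup.act_pr k hk x hxQ]
    rcases F.inter_pr hku hkU with e' | e' <;> rw [add_zero] at e'
    · rw [e', zero_add] at e; exact Or.inl (by rw [← e, vadd_self])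
    · refine Or.inr ?_
      rw [e'] at e
      calc app f (pr x) + pr x = app f (pr x) + (e0 + app f (pr x)) := by rw [← e]
        _ = e0 := by rw [add_comm e0, vadd_cancel_left]
  obtain ⟨a, p, ha, ha0, ha4, hav, hp, hp0, hp4, hpv, hap, huniq, hspan⟩ := exists_axis (pr x) hqv hv0 hv4
  have hB0 : ∀ y, B y e0 = 0 → B (app f y) e0 = 0 := fun y hy => by rw [← h0, app_B, hy]
  have hBnear : ∀ {y r}, near (app f r) r → B y e0 = 0 → B y r = 0 → B (app f y) r = 0 := by
    intro y r hn hy0 hy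
    have := app_B f y r
    rcases hn with e | e
    · rw [eq_of_vadd e, hy] at this; exact this
    · rw [show app f r = r + e0 by rw [← e, add_comm (app f r) r, vadd_cancel_left],
        B_add_right, hB0 y hy0, add_zero, hy] at this
      exact this
  have hane : near (app f a) a := by
    obtain ⟨i, j, l, m, hy⟩ := hspan (app f a) (hB0 a ha0)
    have c1 := hBnear h4 ha0 ha4
    have c2 := hBnear hv ha0 hav
    have c3 : q (app f a) = 1 := by rw [app_q, ha]
    set d := i • e4 + j • pr x + l • a + m • p with hd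
    have hd0 : B d e0 = 0 := by
      simp only [hd, B_add_left, B_smul_left, B_comm e4 e0, B_e0_e4, hv0, ha0, hp0, mul_zero, add_zero]
    have hy' : app f a = d ∨ app f a = d + e0 := by
      rcases hy with e | e
      · exact Or.inl (eq_of_vadd e)
      · exact Or.inr (by rw [← e, add_comm (app f a) d, vadd_cancel_left])
    have d1 : B d e4 = 0 := by
      rcases hy' with e | e <;> rw [e] at c1
      · exact c1
      · rwa [B_add_left, B_e0_e4, add_zero] at c1
    have d2 : B d (pr x) = 0 := by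
      rcases hy' with e | e <;> rw [e] at c2
      · exact c2
      · rwa [B_add_left, B_comm e0, hv0, add_zero] at c2
    have d3 : q d = 1 := by
      rcases hy' with e | e <;> rw [e] at c3
      · exact c3
      · rwa [q_add, q_e0, hd0, add_zero, add_zero] at c3
    simp only [hd, B_add_left, B_smul_left, B_self, hv4, ha4, hp4, mul_zero, mul_one,
      zero_add, add_zero] at d1
    simp only [hd, B_add_left, B_smul_left, B_self, B_comm e4 (pr x), hv4, hav, hpv, mul_zero,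
      mul_one, add_zero] at d2
    have hdd : d = l • a + m • p := by simp [hd, d1, d2]
    rw [hdd, q_add, B_smul_left, B_smul_right, hap] at d3
    have key : ∀ l m : ZMod 2, ∀ qla qmp : ZMod 2, qla = l → qmp = 0 → qla + qmp + l * (m * 1) = 1 →
        l = 1 ∧ m = 0 := by decide
    obtain ⟨rfl, rfl⟩ := key l m _ _
      (by rcases zmod_cases l with rfl | rfl <;> simp [q_zero, ha])
      (by rcases zmod_cases m with rfl | rfl <;> simp [q_zero, hp]) d3
    have hda : d = a := by simp [hdd]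
    rwa [hda] at hy
  have hfp : near (app f p) p ∨ near (app f p) (p + a) := by
    refine huniq _ (by rw [app_q, hp]) (hB0 p hp0) (hBnear h4 hp0 hp4) (hBnear hv hp0 hpv) ?_ ?_
    · intro e
      have : p = 0 := app_injective f (e.trans (app_zero f).symm)
      rw [this, B_zero_right] at hap; exact zero_ne_one hap
    · intro e
      have : p = e0 := app_injective f (e.trans h0.symm)
      rw [this, ha0] at hap; exact zero_ne_one hap
  have htriv : ∀ (m : Iso), app m e0 = e0 → near (app m e4) e4 → near (app m (pr x)) (pr x) →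
      near (app m a) a → near (app m p) p →
      ∃ w, B e0 w = 0 ∧ ∀ v, app m v = E e0 w v := by
    intro m m0 m4 mv ma mp
    refine exists_E_of_trivial m0 fun y hy => ?_
    obtain ⟨i, j, l, n, hn⟩ := hspan y hy
    have hsm : ∀ {c : ZMod 2} {r}, near (app m r) r → near (app m (c • r)) (c • r) := by
      intro c r hr
      rcases zmod_cases c with rfl | rfl
      · simp [app_zero, near_self]
      · simpa using hr
    have hadd : ∀ {r r'}, near (app m r) r → near (app m r') r' → near (app m (r + r')) (r + r') := by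
      intro r r' h1 h2
      rw [app_add]
      rcases h1 with e | e <;> rcases h2 with e' | e'
      · exact Or.inl (by rw [add_add_add_comm, e, e', add_zero])
      · exact Or.inr (by rw [add_add_add_comm, e, e', zero_add])
      · exact Or.inr (by rw [add_add_add_comm, e, e', add_zero])
      · exact Or.inl (by rw [add_add_add_comm, e, e', vadd_self])
    have hc := hadd (hadd (hadd (hsm (c := i) m4) (hsm (c := j) mv)) (hsm (c := l) ma)) (hsm (c := n) mp)
    have hm : near (app m y) (app m (i • e4 + j • pr x + l • a + n • p)) := by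
      rcases hn with e | e
      · exact Or.inl (by rw [← app_add, e, app_zero])
      · exact Or.inr (by rw [← app_add, e, m0])
    exact near_trans hm (near_trans hc (near_symm hn))
  rcases hfp with hp' | hp'
  · obtain ⟨w, hw, ew⟩ := htriv f h0 h4 hv hane hp'
    exact ⟨w, by rw [B_comm]; exact hw, ew⟩
  exfalso
  have hr0 : app (rf a ha) e0 = e0 := app_rf_fix a ha e0 (by rw [B_comm]; exact ha0)
  have hnear : ∀ {b r}, near b r → near (app (rf a ha) b) (app (rf a ha) r) := by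
    intro b r h
    rcases h with e | e
    · exact Or.inl (by rw [← app_add, e, app_zero])
    · exact Or.inr (by rw [← app_add, e, hr0])
  have hfixn : ∀ {r}, B r a = 0 → near (app f r) r → near (app (rf a ha * f) r) r := by
    intro r hr hn
    rw [app_mul]
    have := hnear hn
    rwa [app_rf_fix a ha r hr] at this
  obtain ⟨w, hw, ew⟩ := htriv (rf a ha * f) (by rw [app_mul, h0, hr0])
    (hfixn (by rw [B_comm]; exact ha4) h4) (hfixn (by rw [B_comm]; exact hav) hv)
    (hfixn (B_self a) hane)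
    (by
      rw [app_mul]
      have := hnear hp'
      rwa [app_add, app_rf_fix a ha a (B_self a), app_rf a ha p, B_comm p a, hap, one_smul, vadd_cancel] at this)
  obtain ⟨m, hm, em⟩ := exists_eichler q_e0 hw
  have hmem : rf a ha * f ∈ Omega (ZMod 2) Q6 := by
    rwa [show rf a ha * f = m from iso_ext fun v => by rw [ew, em]]
  exact rf_not_mem a ha ((mul_mem_cancel_right (F.setup.act_mem hk)).1 hmem)

theorem no_odd {t c : G} (hT : IsT z act t) (hc : c * z = z * c) (hct : c * t = t * c)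
    (ho : Odd (orderOf c)) : c = 1 := by
  have hcs := F.conj_s_odd hc (F.fix_e0 hT hc hct) ho
  obtain ⟨w, hw, ew⟩ := F.etype_of_centralizing hT hc hct hcs
  have h2 : act c ^ 2 ^ 1 = 1 := by
    refine iso_ext fun v => ?_
    rw [pow_one, sq, app_mul, ew, ew, E_comp q_e0 (by rw [B_comm]; exact hw) (by rw [B_comm]; exact hw),
      vadd_self, E_zero, app_one]
  have h1 : act c = 1 := by
    refine isPGroup_eq_one (ho.of_dvd_nat (orderOf_dvd_of_pow_eq_one ?_)) h2
    rw [← F.setup.act_pow hc, pow_orderOf_eq_one, F.setup.act_one]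
  exact F.setup.eq_one_of_mem_odd ((F.setup.act_ker c hc).1 h1) ho

/-- An element moving `s` in the centralizer of `z` and `t`. -/
theorem exists_mover {t : G} (hT : IsT z act t) :
    ∃ k, k * z = z * k ∧ k * t = t * k ∧ k * s * k⁻¹ = s * z := by
  obtain ⟨u, hu, hu2, eu⟩ := F.exists_u
  obtain ⟨hxQ, hv0, hv4, hqv⟩ := F.partner hT hu hu2 eu
  set x := u⁻¹ * t with hx
  obtain ⟨a, p, ha, ha0, ha4, hav, -⟩ := exists_axis (pr x) hqv hv0 hv4
  set m := rf e4 q_e4 * rf a ha with hm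
  have m0 : app m e0 = e0 := by
    rw [hm, app_mul, app_rf_fix a ha e0 (by rw [B_comm]; exact ha0), app_rf_fix e4 q_e4 e0 B_e0_e4]
  have m4 : app m e4 = e4 := by
    rw [hm, app_mul, app_rf_fix a ha e4 (by rw [B_comm]; exact ha4), app_rf_fix e4 q_e4 e4 (B_self e4)]
  have mv : app m (pr x) = pr x + e4 := by
    rw [hm, app_mul, app_rf_fix a ha (pr x) (by rw [B_comm]; exact hav), app_rf, hv4, one_smul]
  obtain ⟨k, hk, hkm, hks⟩ := F.exists_act_fix (rf_mul_rf e4 a q_e4 ha) m0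
  rw [← hm] at hkm
  set t' := k * t * k⁻¹ with ht'
  have ht'z := F.setup.comm_conj hk hT.comm
  have hkuact : act (k * u * k⁻¹) = act u := iso_ext fun v => by
    rw [F.setup.act_conj hk hu.2, app_mul, app_mul, eu, app_E, app_app_inv, hkm, m0, m4, eu]
  have hku : u⁻¹ * (k * u * k⁻¹) ∈ Q :=
    F.setup.mul_inv_mem hu.2 (F.setup.comm_conj hk hu.2) hkuact.symm
  have hkU := F.inU_mul (F.inU_inv hu) (F.inU_normalized hk hks hu)
  have hδ : t⁻¹ * t' = x⁻¹ * (u⁻¹ * (k * u * k⁻¹) * (k * x * k⁻¹)) := by rw [ht', hx]; group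
  have hδQ : t⁻¹ * t' ∈ Q := by
    rw [hδ]; exact Q.mul_mem (Q.inv_mem hxQ) (Q.mul_mem hku (F.setup.conj_mem hk hxQ))
  have hprδ : pr (t⁻¹ * t') = pr (u⁻¹ * (k * u * k⁻¹)) + e4 := by
    rw [hδ, F.setup.pr_mul _ (Q.inv_mem hxQ) _ (Q.mul_mem hku (F.setup.conj_mem hk hxQ)),
      F.setup.pr_mul _ hku _ (F.setup.conj_mem hk hxQ), F.setup.pr_inv hxQ,
      F.setup.act_pr k hk x hxQ, hkm, mv]
    calc pr x + (pr (u⁻¹ * (k * u * k⁻¹)) + (pr x + e4))
        = pr (u⁻¹ * (k * u * k⁻¹)) + e4 + (pr x + pr x) := by abel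
      _ = _ := by rw [vadd_self, add_zero]
  have hin : inU2 e4 (pr (t⁻¹ * t')) := by
    rcases F.inter_pr hku hkU with e | e <;> rw [add_zero] at e <;> rw [hprδ, e]
    · exact Or.inr (Or.inr (Or.inl (zero_add e4)))
    · exact Or.inr (Or.inr (Or.inr rfl))
  have hne : near (pr (t⁻¹ * t')) e4 := by
    rcases F.inter_pr hku hkU with e | e <;> rw [add_zero] at e <;> rw [hprδ, e]
    · exact Or.inl (by rw [zero_add, vadd_self])
    · exact Or.inr (vadd_cancel e0 e4)
  obtain ⟨v, hv⟩ := range_four _ hin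
  obtain ⟨y, hy, rfl⟩ := F.setup.pr_surj v
  have hym : B (pr y) e0 = 1 := near_range_four _ (by rw [hv]; exact hne)
  have hm' := F.setup.conj_mem hT.comm hy
  have hti : t⁻¹ = t := inv_eq_of_mul_eq_one_left hT.sq
  have hyt : t * y * t⁻¹ * y⁻¹ ∈ Q := Q.mul_mem hm' (Q.inv_mem hy)
  have hpy : pr (t * y * t⁻¹ * y⁻¹) = pr (t⁻¹ * t') := by
    rw [F.setup.pr_mul _ hm' _ (Q.inv_mem hy), F.setup.pr_inv hy, F.setup.act_pr t hT.comm y hy,
      hT.map, hv]
  have hyconj : t * (t * y * t⁻¹ * y⁻¹) = y * t * y⁻¹ := by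
    rw [show t * (t * y * t⁻¹ * y⁻¹) = (t * t) * (y * t⁻¹ * y⁻¹) by group, hT.sq, one_mul, hti]
  obtain ⟨Y, hY, hYB, hYt⟩ : ∃ Y ∈ Q, B (pr Y) e0 = 1 ∧ Y * t * Y⁻¹ = t' := by
    rcases F.setup.pr_congr hδQ hyt hpy.symm with e | e
    · refine ⟨y, hy, hym, ?_⟩
      rw [← hyconj, ← e, mul_inv_cancel_left]
    · obtain ⟨x4, hx4, hpx4, hx4t⟩ := F.setup.mul_z_conj hT.comm hT.sq hT.map
      refine ⟨y * x4, Q.mul_mem hy hx4, by
        rw [F.setup.pr_mul _ hy _ hx4, hpx4, B_add_left, hym, B_comm e4, B_e0_e4, add_zero], ?_⟩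
      have hyz : y * z * y⁻¹ = z := by rw [F.setup.comm_Q hy, mul_inv_cancel_right]
      have et' : t' = y * t * y⁻¹ * z := by
        rw [← hyconj, mul_assoc, ← e, mul_inv_cancel_left]
      rw [show y * x4 * t * (y * x4)⁻¹ = y * (x4 * t * x4⁻¹) * y⁻¹ by group, hx4t,
        show y * (t * z) * y⁻¹ = y * t * y⁻¹ * (y * z * y⁻¹) by group, hyz, et']
  refine ⟨Y⁻¹ * k, F.setup.comm_mul (F.setup.comm_Q (Q.inv_mem hY)) hk, ?_, ?_⟩
  · refine mul_inv_eq_iff_eq_mul.1 ?_
    rw [show Y⁻¹ * k * t * (Y⁻¹ * k)⁻¹ = Y⁻¹ * (k * t * k⁻¹) * Y by group, ← ht', ← hYt]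
    group
  · rw [show Y⁻¹ * k * s * (Y⁻¹ * k)⁻¹ = Y⁻¹ * (k * s * k⁻¹) * Y⁻¹⁻¹ by group,
      mul_inv_eq_iff_eq_mul.2 hks]
    exact F.setup.conj_eq_mul_z (Q.inv_mem hY) F.s_mem (by rw [F.setup.pr_inv hY, F.s_pr]; exact hYB)

theorem exists_pair_commuting {t' : G} (ht' : t' * z = z * t') (ht2 : t' * t' = 1) {w : V}
    (hw : B w e0 = 0) (hq : q w = 1) (et : ∀ v, app (act t') v = E e0 w v) :
    ∃ a b, a ∈ Q ∧ b ∈ Q ∧ a * s = s * a ∧ b * s = s * b ∧ a * t' = t' * a ∧ b * t' = t' * b ∧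
      a * b * a⁻¹ * b⁻¹ = z := by
  obtain ⟨c, hc, hcs, hc0, hcn⟩ := F.transport hw (w' := e4) (by rw [B_comm]; exact B_e0_e4)
    (by rw [hq, q_e4]) (fun e => absurd e (by rw [hq]; exact one_ne_zero))
    (fun e => absurd e (by rw [q_e4]; exact one_ne_zero))
  set t := c * t' * c⁻¹ with ht
  have hT : IsT z act t := ⟨F.setup.comm_conj hc ht', by
    rw [ht, show c * t' * c⁻¹ * (c * t' * c⁻¹) = c * (t' * t') * c⁻¹ by group, ht2]; group,
    fun v => by
      rw [ht, F.setup.act_conj hc ht', app_mul, app_mul, et, app_E, app_app_inv, hc0]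
      exact E_congr hcn q_e0 (by rw [B_comm, ← hc0, app_B, hw]) v⟩
  obtain ⟨x, hx, hpx, hxt⟩ := F.setup.mul_z_conj hT.comm hT.sq hT.map
  have hti : t⁻¹ = t := inv_eq_of_mul_eq_one_left hT.sq
  have htx : t * x * t⁻¹ = x * z := by
    have e : x * t = t * z * x := mul_inv_eq_iff_eq_mul.1 hxt
    calc t * x * t⁻¹ = t * (x * t) := by rw [hti, mul_assoc]
      _ = (t * t) * (z * x) := by rw [e]; group
      _ = x * z := by rw [hT.sq, one_mul, F.setup.comm_Q hx]
  have hfix : ∀ d, inW e4 d → ∃ a ∈ Q, (pr a = d ∨ pr a = d + e4) ∧ a * t = t * a := by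
    intro d hd
    obtain ⟨a, ha, rfl⟩ := F.setup.pr_surj d
    rcases F.setup.pr_congr (F.setup.conj_mem hT.comm ha) ha
      (by rw [F.setup.act_pr t hT.comm a ha, hT.map, (fixed_iff_four _).2 hd]) with e | e
    · exact ⟨a, ha, Or.inl rfl, (mul_inv_eq_iff_eq_mul.1 e).symm⟩
    · refine ⟨a * x, Q.mul_mem ha hx, Or.inr (by rw [F.setup.pr_mul _ ha _ hx, hpx]),
        (mul_inv_eq_iff_eq_mul.1 ?_).symm⟩
      rw [show t * (a * x) * t⁻¹ = t * a * t⁻¹ * (t * x * t⁻¹) by group, e, htx]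
      calc a * z * (x * z) = a * (z * x) * z := by group
        _ = a * (x * z) * z := by rw [F.setup.comm_Q hx]
        _ = a * x := by
          rw [mul_assoc, mul_assoc x z z, F.setup.z_sq, mul_one]
  obtain ⟨a, ha, hpa, hat⟩ := hfix e2 (by decide)
  obtain ⟨b, hb, hpb, hbt⟩ := hfix e3 (by decide)
  have hB : B (pr a) (pr b) = 1 := by
    rcases hpa with e | e <;> rcases hpb with e' | e' <;> rw [e, e'] <;> decide
  have has : a * s = s * a := F.setup.commute_of ha F.s_mem (by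
    rw [F.s_pr]; rcases hpa with e | e <;> rw [e] <;> decide)
  have hbs : b * s = s * b := F.setup.commute_of hb F.s_mem (by
    rw [F.s_pr]; rcases hpb with e | e <;> rw [e] <;> decide)
  have hab : a * b * a⁻¹ * b⁻¹ = z := by
    rw [F.setup.conj_eq_mul_z ha hb hB, F.setup.comm_Q hb, mul_inv_cancel_right]
  have hci := F.setup.comm_inv hc
  have hcsi : c⁻¹ * s = s * c⁻¹ := (Commute.inv_left (show Commute c s from hcs)).eq
  have hcs' : c⁻¹ * s * c⁻¹⁻¹ = s := mul_inv_eq_iff_eq_mul.2 hcsi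
  refine ⟨c⁻¹ * a * c⁻¹⁻¹, c⁻¹ * b * c⁻¹⁻¹, F.setup.conj_mem hci ha, F.setup.conj_mem hci hb,
    ?_, ?_, ?_, ?_, ?_⟩
  · nth_rewrite 1 [← hcs']
    nth_rewrite 2 [← hcs']
    rw [show c⁻¹ * a * c⁻¹⁻¹ * (c⁻¹ * s * c⁻¹⁻¹) = c⁻¹ * (a * s) * c⁻¹⁻¹ by group, has]; group
  · nth_rewrite 1 [← hcs']
    nth_rewrite 2 [← hcs']
    rw [show c⁻¹ * b * c⁻¹⁻¹ * (c⁻¹ * s * c⁻¹⁻¹) = c⁻¹ * (b * s) * c⁻¹⁻¹ by group, hbs]; group
  · calc c⁻¹ * a * c⁻¹⁻¹ * t' = c⁻¹ * (a * t) * c⁻¹⁻¹ := by rw [ht]; group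
      _ = t' * (c⁻¹ * a * c⁻¹⁻¹) := by rw [hat, ht]; group
  · calc c⁻¹ * b * c⁻¹⁻¹ * t' = c⁻¹ * (b * t) * c⁻¹⁻¹ := by rw [ht]; group
      _ = t' * (c⁻¹ * b * c⁻¹⁻¹) := by rw [hbt, ht]; group
  · rw [show c⁻¹ * a * c⁻¹⁻¹ * (c⁻¹ * b * c⁻¹⁻¹) * (c⁻¹ * a * c⁻¹⁻¹)⁻¹ * (c⁻¹ * b * c⁻¹⁻¹)⁻¹ =
      c⁻¹ * (a * b * a⁻¹ * b⁻¹) * c⁻¹⁻¹ by group, hab, hci, mul_inv_cancel_right]

open scoped commutatorElement in
/-- The centralizer of `z` and `t`, as a subgroup. -/
theorem gamma {t : G} (hT : IsT z act t) {W : Subgroup G}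
    (hW : ∀ k, k ∈ W ↔ k * z = z * k ∧ k * t = t * k) :
    z ∈ ⁅⁅W, W⁆, W⁆ ∧ ∀ k ∈ ⁅⁅W, W⁆, W⁆, k * z = z * k ∧ act k = 1 := by
  obtain ⟨u, hu, hu2, eu⟩ := F.exists_u
  obtain ⟨hxQ, hv0, hv4, hqv⟩ := F.partner hT hu hu2 eu
  set x := u⁻¹ * t with hx
  obtain ⟨g0, hg0z, hg0t, hg0s⟩ := F.exists_mover hT
  have hst : s * t = t * s := by
    have h1 : u * s = s * u := F.inU_comm_s hu
    have h2 : x * s = s * x := F.setup.commute_of hxQ F.s_mem (by rw [F.s_pr]; exact hv0)
    calc s * t = s * (u * x) := by rw [hx, mul_inv_cancel_left]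
      _ = u * (s * x) := by rw [← mul_assoc, ← h1, mul_assoc]
      _ = u * x * s := by rw [← h2, ← mul_assoc]
      _ = t * s := by rw [hx, mul_inv_cancel_left]
  have hsW : s ∈ W := (hW s).2 ⟨F.s_z, hst⟩
  have hgW : g0 ∈ W := (hW g0).2 ⟨hg0z, hg0t⟩
  -- `s` is a commutator
  have hsc : s ∈ ⁅W, W⁆ := by
    set t' := g⁻¹ * t * g with ht'
    have hu'Q : g⁻¹ * u * g ∈ Q := hu.1
    have hxs : x * s = s * x := F.setup.commute_of hxQ F.s_mem (by rw [F.s_pr]; exact hv0)
    have hY := F.inU_conj_inv hxQ hxs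
    have ht'z : t' * z = z * t' := F.conj_cent hst.symm
    have ht'2 : t' * t' = 1 := by
      rw [ht', show g⁻¹ * t * g * (g⁻¹ * t * g) = g⁻¹ * (t * t) * g by group, hT.sq]; group
    have hsplit : t' = g⁻¹ * u * g * (g⁻¹ * x * g) := by rw [ht', hx]; group
    obtain ⟨w, hw, eY⟩ := F.exists_act_inU hY
    have hw0 : B w e0 = 0 := by rw [B_comm]; exact hw
    have et' : ∀ v, app (act t') v = E e0 w v := fun v => by
      rw [hsplit, F.setup.act_mul _ _ (F.setup.comm_Q hu'Q) hY.2, F.setup.act_Q hu'Q, one_mul, eY]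
    have hYsq : g⁻¹ * x * g * (g⁻¹ * x * g) = s := by
      rw [show g⁻¹ * x * g * (g⁻¹ * x * g) = g⁻¹ * (x * x) * g by group,
        F.setup.sq_eq_z hxQ hqv, F.g_inv_z]
    have hqw : q w = 1 := by
      rcases zmod_cases (q w) with hq | hq
      · exfalso
        have hn : ¬ near w 0 := fun hn => by
          have hYQ : g⁻¹ * x * g ∈ Q := (F.setup.act_ker _ hY.2).1 (iso_ext fun v => by
            rw [eY, app_one, E_congr hn q_e0 hw, E_zero])
          have := F.sq_inter hYQ hY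
          rw [hYsq] at this
          exact F.s_ne this
        have := F.sq_of_singular hY hw hn eY hq
        rw [hYsq] at this
        exact F.s_ne this
      · exact hq
    obtain ⟨a, b, ha, hb, has, hbs, hat, hbt, hab⟩ := F.exists_pair_commuting ht'z ht'2 hw0 hqw et'
    have hmove : ∀ {d}, d * s = s * d → d * t' = t' * d → g * d * g⁻¹ ∈ W := by
      intro d hds hdt
      refine (hW _).2 ⟨?_, ?_⟩
      · calc g * d * g⁻¹ * z = g * (d * (g⁻¹ * z * g)) * g⁻¹ := by group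
          _ = g * (s * d) * g⁻¹ := by rw [F.g_inv_z, hds]
          _ = z * (g * d * g⁻¹) := by rw [← F.g_s]; group
      · calc g * d * g⁻¹ * t = g * (d * t') * g⁻¹ := by rw [ht']; group
          _ = t * (g * d * g⁻¹) := by rw [hdt, ht']; group
    have := Subgroup.commutator_mem_commutator (hmove has hat) (hmove hbs hbt)
    rwa [commutatorElement_def, show g * a * g⁻¹ * (g * b * g⁻¹) * (g * a * g⁻¹)⁻¹ * (g * b * g⁻¹)⁻¹ =
      g * (a * b * a⁻¹ * b⁻¹) * g⁻¹ by group, hab, F.g_z] at this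
  refine ⟨?_, ?_⟩
  · have := Subgroup.commutator_mem_commutator hsc hgW
    rwa [commutatorElement_def, show s * g0 * s⁻¹ * g0⁻¹ = s * (g0 * s * g0⁻¹)⁻¹ by group, hg0s,
      mul_inv_rev, inv_eq_of_mul_eq_one_left F.setup.z_sq, inv_eq_of_mul_eq_one_left F.s_sq,
      ← mul_assoc, F.s_z, mul_assoc, F.s_sq, mul_one] at this
  -- the images
  have hz : ∀ {k}, k ∈ W → k * z = z * k := fun hk => ((hW _).1 hk).1
  have hdec : ∀ {k}, k ∈ W → EType act k ∨ EType act (k * g0⁻¹) := by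
    intro k hk
    obtain ⟨hkz, hkt⟩ := (hW k).1 hk
    rcases F.conj_s hkz (F.fix_e0 hT hkz hkt) with e | e
    · exact Or.inl (F.etype_of_centralizing hT hkz hkt (mul_inv_eq_iff_eq_mul.1 e))
    · right
      have h' := W.mul_mem hk (W.inv_mem hgW)
      obtain ⟨a1, a2⟩ := (hW _).1 h'
      refine F.etype_of_centralizing hT a1 a2 (mul_inv_eq_iff_eq_mul.1 ?_)
      have hgi : g0⁻¹ * s * g0 = s * z := by
        have e1 : g0 * (s * z) * g0⁻¹ = s := by
          rw [show g0 * (s * z) * g0⁻¹ = g0 * s * g0⁻¹ * (g0 * z * g0⁻¹) by group, hg0s, hg0z,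
            mul_inv_cancel_right, mul_assoc, F.setup.z_sq, mul_one]
        conv_lhs => rw [← e1]
        group
      rw [show k * g0⁻¹ * s * (k * g0⁻¹)⁻¹ = k * (g0⁻¹ * s * g0) * k⁻¹ by group, hgi,
        show k * (s * z) * k⁻¹ = k * s * k⁻¹ * (k * z * k⁻¹) by group, e, hkz, mul_inv_cancel_right,
        mul_assoc, F.setup.z_sq, mul_one]
  let φ : ↥W →* Iso := MonoidHom.mk' (fun k => act k) fun a b => F.setup.act_mul _ _ (hz a.2) (hz b.2)
  have hcomm : ∀ {a b : G}, a ∈ W → b ∈ W → EType act a → EType act b → act a * act b = act b * act a := by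
    rintro a b - - ⟨w, hw, ea⟩ ⟨w', hw', eb⟩
    refine iso_ext fun v => ?_
    rw [app_mul, app_mul, ea, eb, eb, ea, E_comp q_e0 (by rw [B_comm]; exact hw) (by rw [B_comm]; exact hw'),
      E_comp q_e0 (by rw [B_comm]; exact hw') (by rw [B_comm]; exact hw), add_comm]
  set f := act g0 with hf
  have hf0 : app f e0 = e0 := F.fix_e0 hT hg0z hg0t
  have hg2 : EType act (g0 * g0) := by
    refine F.etype_of_centralizing hT (F.setup.comm_mul hg0z hg0z)
      (Commute.mul_left (show Commute g0 t from hg0t) (show Commute g0 t from hg0t)).eq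
      (mul_inv_eq_iff_eq_mul.1 ?_)
    rw [show g0 * g0 * s * (g0 * g0)⁻¹ = g0 * (g0 * s * g0⁻¹) * g0⁻¹ by group, hg0s,
      show g0 * (s * z) * g0⁻¹ = g0 * s * g0⁻¹ * (g0 * z * g0⁻¹) by group, hg0s, hg0z,
      mul_inv_cancel_right, mul_assoc, F.setup.z_sq, mul_one]
  -- the set of Eichler images, the commutators with `g0` are central
  let N : Set Iso := {m | ∃ w, B w e0 = 0 ∧ ∀ v, app m v = E e0 w v}
  have Ncomm : ∀ m ∈ N, ∀ n ∈ N, m * n = n * m := by
    rintro m ⟨w, hw, ea⟩ n ⟨w', hw', eb⟩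
    refine iso_ext fun v => ?_
    rw [app_mul, app_mul, ea, eb, eb, ea, E_comp q_e0 (by rw [B_comm]; exact hw) (by rw [B_comm]; exact hw'),
      E_comp q_e0 (by rw [B_comm]; exact hw') (by rw [B_comm]; exact hw), add_comm]
  have Ninv : ∀ m ∈ N, m⁻¹ = m := by
    rintro m ⟨w, hw, ea⟩
    refine inv_eq_of_mul_eq_one_left (iso_ext fun v => ?_)
    rw [app_mul, ea, ea, E_comp q_e0 (by rw [B_comm]; exact hw) (by rw [B_comm]; exact hw), vadd_self,
      E_zero, app_one]
  have Nmul : ∀ m ∈ N, ∀ n ∈ N, m * n ∈ N := by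
    rintro m ⟨w, hw, ea⟩ n ⟨w', hw', eb⟩
    exact ⟨w + w', by rw [B_add_left, hw, hw', add_zero], fun v => by
      rw [app_mul, eb, ea, E_comp q_e0 (by rw [B_comm]; exact hw) (by rw [B_comm]; exact hw')]⟩
  have Nconj : ∀ m ∈ N, f * m * f⁻¹ ∈ N := by
    rintro m ⟨w, hw, ea⟩
    exact ⟨app f w, by rw [← hf0, app_B, hw], fun v => by
      rw [app_mul, app_mul, ea, app_E, hf0, app_app_inv]⟩
  have hf2 : f * f ∈ N := by
    obtain ⟨w, hw, e⟩ := hg2
    exact ⟨w, hw, fun v => by rw [hf, ← F.setup.act_mul _ _ hg0z hg0z, e]⟩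
  set c : Iso → Iso := fun m => f * m * f⁻¹ * m with hc
  have cN : ∀ m ∈ N, c m ∈ N := fun m hm => Nmul _ (Nconj m hm) _ hm
  have cf : ∀ m ∈ N, f * c m = c m * f := by
    intro m hm
    have e2 : f * f * m = m * (f * f) := Ncomm _ hf2 _ hm
    have e3 : f * (f * m * f⁻¹) * f⁻¹ = m := by
      calc f * (f * m * f⁻¹) * f⁻¹ = f * f * m * (f * f)⁻¹ := by group
        _ = m := by rw [e2, mul_inv_cancel_right]
    calc f * c m = f * (f * m * f⁻¹) * f⁻¹ * (f * m * f⁻¹) * f := by rw [hc]; group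
      _ = m * (f * m * f⁻¹) * f := by rw [e3]
      _ = c m * f := by rw [Ncomm m hm _ (Nconj m hm)]
  have hcent : ∀ (k : ↥W), φ k ∈ N ∨ ∃ n ∈ N, φ k = n * f := by
    intro k
    rcases hdec k.2 with ⟨w, hw, e⟩ | ⟨w, hw, e⟩
    · exact Or.inl ⟨w, hw, e⟩
    · refine Or.inr ⟨act ((k : G) * g0⁻¹), ⟨w, hw, e⟩, ?_⟩
      show act (k : G) = _
      rw [hf, ← F.setup.act_mul _ _ (F.setup.comm_mul (hz k.2) (F.setup.comm_inv hg0z)) hg0z,
        inv_mul_cancel_right]
  have hfinal : ∀ a b d : ↥W, φ ⁅⁅a, b⁆, d⁆ = 1 := by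
    intro a b d
    rw [map_commutatorElement, map_commutatorElement]
    have hZ : ∀ e ∈ N, e * f = f * e → ⁅e, φ d⁆ = 1 := by
      intro e he hef
      rw [commutatorElement_eq_one_iff_mul_comm]
      rcases hcent d with hd | ⟨n, hn, hd⟩
      · exact Ncomm e he _ hd
      · rw [hd, ← mul_assoc, Ncomm e he n hn, mul_assoc, hef, mul_assoc]
    have hab : ∃ e ∈ N, e * f = f * e ∧ ⁅φ a, φ b⁆ = e := by
      have one_mem : (1 : Iso) ∈ N := ⟨0, B_zero_left e0, fun v => by rw [app_one, E_zero]⟩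
      rcases hcent a with ha | ⟨m, hm, ha⟩ <;> rcases hcent b with hb | ⟨n, hn, hb⟩
      · exact ⟨1, one_mem, by rw [one_mul, mul_one], commutatorElement_eq_one_iff_mul_comm.2 (Ncomm _ ha _ hb)⟩
      · refine ⟨c (φ a), cN _ ha, (cf _ ha).symm, ?_⟩
        rw [hb, commutatorElement_def, mul_inv_rev, Ninv n hn, Ninv _ ha]
        calc φ a * (n * f) * φ a * (f⁻¹ * n) = φ a * n * (f * φ a * f⁻¹) * n := by group
          _ = n * φ a * (f * φ a * f⁻¹) * n := by rw [Ncomm _ ha n hn]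
          _ = n * (φ a * (f * φ a * f⁻¹)) * n := by group
          _ = n * c (φ a) * n := by rw [Ncomm _ ha _ (Nconj _ ha)]
          _ = c (φ a) * n * n := by rw [Ncomm n hn _ (cN _ ha)]
          _ = c (φ a) := by
            rw [mul_assoc, show n * n = 1 by nth_rewrite 1 [← Ninv n hn]; exact inv_mul_cancel n, mul_one]
      · refine ⟨c (φ b), cN _ hb, (cf _ hb).symm, ?_⟩
        rw [ha, commutatorElement_def, mul_inv_rev, Ninv m hm, Ninv _ hb]
        calc m * f * φ b * (f⁻¹ * m) * φ b = m * (f * φ b * f⁻¹) * (m * φ b) := by group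
          _ = f * φ b * f⁻¹ * m * (m * φ b) := by rw [Ncomm m hm _ (Nconj _ hb)]
          _ = f * φ b * f⁻¹ * (m * m) * φ b := by group
          _ = c (φ b) := by
            rw [show m * m = 1 by nth_rewrite 1 [← Ninv m hm]; exact inv_mul_cancel m, mul_one]
      · refine ⟨c (m * n), cN _ (Nmul _ hm _ hn), (cf _ (Nmul _ hm _ hn)).symm, ?_⟩
        rw [ha, hb, commutatorElement_def, mul_inv_rev, mul_inv_rev, Ninv n hn, Ninv m hm]
        have hfm : f * m * f⁻¹ ∈ N := Nconj m hm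
        have hfn : f * n * f⁻¹ ∈ N := Nconj n hn
        have hx' : f * (m * n) * f⁻¹ = (f * m * f⁻¹) * (f * n * f⁻¹) := by group
        calc m * f * (n * f) * (f⁻¹ * m) * (f⁻¹ * n) = m * (f * (n * m) * f⁻¹) * n := by group
          _ = f * (n * m) * f⁻¹ * (m * n) := by
            rw [Ncomm m hm _ (Nconj _ (Nmul _ hn _ hm)), mul_assoc]
          _ = c (m * n) := by rw [Ncomm n hn m hm]
    obtain ⟨e, he, hef, heq⟩ := hab
    rw [heq]
    exact hZ e he hef
  have hlow : ⁅⁅(⊤ : Subgroup ↥W), (⊤ : Subgroup ↥W)⁆, (⊤ : Subgroup ↥W)⁆ ≤ φ.ker := by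
    have hbot : ⁅⁅φ.range, φ.range⁆, φ.range⁆ = ⊥ := by
      rw [Subgroup.commutator_eq_bot_iff_le_centralizer, Subgroup.commutator_le]
      rintro _ ⟨a, rfl⟩ _ ⟨b, rfl⟩
      rw [Subgroup.mem_centralizer_iff]
      rintro _ ⟨d, rfl⟩
      have := hfinal a b d
      rw [map_commutatorElement, map_commutatorElement, commutatorElement_eq_one_iff_mul_comm] at this
      exact this.symm
    intro k hk
    have h2 : φ k ∈ (⁅⁅(⊤ : Subgroup ↥W), (⊤ : Subgroup ↥W)⁆, (⊤ : Subgroup ↥W)⁆).map φ := ⟨k, hk, rfl⟩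
    rw [Subgroup.map_commutator, Subgroup.map_commutator, ← MonoidHom.range_eq_map, hbot] at h2
    exact h2
  intro k hk
  have hW' : ⁅⁅W, W⁆, W⁆ = (⁅⁅(⊤ : Subgroup ↥W), (⊤ : Subgroup ↥W)⁆, (⊤ : Subgroup ↥W)⁆).map W.subtype := by
    rw [Subgroup.map_commutator, Subgroup.map_commutator, ← MonoidHom.range_eq_map, Subgroup.range_subtype]
  rw [hW'] at hk
  obtain ⟨k', hk', rfl⟩ := hk
  exact ⟨hz k'.2, hlow hk'⟩

theorem rel_singular {b : G} {y : G} (hy : y * z = z * y) (h : Rel z y b) {c : G} (hc : c * z = z * c)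
    (hcb : c * b = b * c) (ho : Odd (orderOf c)) (hne : c ≠ 1) :
    ∃ c', c' * z = z * c' ∧ c' * y = y * c' ∧ Odd (orderOf c') ∧ c' ≠ 1 := by
  obtain ⟨k, hk, e⟩ := h
  have hcbz : c * (k * y * k⁻¹) = k * y * k⁻¹ * c := by
    rcases e with e | e <;> rw [e]
    · exact hcb
    · rw [← mul_assoc, hcb, mul_assoc, hc, mul_assoc]
  refine ⟨k⁻¹ * c * k, ?_, ?_, odd_orderOf_conj k c ho, fun e' => hne (by
    rw [show c = k * (k⁻¹ * c * k) * k⁻¹ by group, e']; group)⟩
  · exact F.setup.comm_mul (F.setup.comm_mul (F.setup.comm_inv hk) hc) hk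
  · calc k⁻¹ * c * k * y = k⁻¹ * (c * (k * y * k⁻¹)) * k := by group
      _ = y * (k⁻¹ * c * k) := by rw [hcbz]; group

theorem exists_odd_singular : ∃ c e, c * z = z * c ∧ c * s = s * c ∧ c * e = e * c ∧ Odd (orderOf c) ∧
    c ≠ 1 ∧ F.InU e ∧ e * e = 1 ∧ ∀ v, app (act e) v = E e0 e2 v := by
  obtain ⟨e, he, he2, ee⟩ := F.exists_e
  obtain ⟨ρ, hρ⟩ := stdCoset_two
  obtain ⟨c, hc, hcρ, ho⟩ := F.setup.exists_odd_lift hρ.mem (n := 3) (by decide) hρ.cube
  have h0 : app (act c) e0 = e0 := by rw [hcρ]; exact hρ.fix_s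
  have hcs := F.conj_s_odd hc h0 ho
  refine ⟨c, e, hc, hcs, ?_, ho, ?_, he, he2, ee⟩
  · refine F.odd_commute_inU hc hcs ho he (iso_ext fun v => ?_)
    rw [app_mul, app_mul, ee, app_E, app_app_inv, h0, hcρ, hρ.fix_T, ee]
  · intro h1
    rw [h1, F.setup.act_one] at hcρ
    have := hρ.map_a
    rw [← hcρ, app_one] at this
    exact absurd this (by decide)

/-- The type of an involution in the centralizer of `z`. -/
theorem classify {e t y : G} (he : F.InU e) (he2 : e * e = 1) (ee : ∀ v, app (act e) v = E e0 e2 v)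
    (hT : IsT z act t) (hy : y * z = z * y) (hy2 : y * y = 1) :
    y = 1 ∨ y = z ∨ Rel z y s ∨ Rel z y e ∨ Rel z y t := by
  by_cases hyQ : y ∈ Q
  · by_cases h1 : y = 1
    · exact Or.inl h1
    by_cases h2 : y = z
    · exact Or.inr (Or.inl h2)
    obtain ⟨c, hc, hcy⟩ := F.setup.transitive hyQ hy2 h1 h2 F.s_mem F.s_sq F.s_ne F.s_ne_z
    exact Or.inr (Or.inr (Or.inl ⟨c, hc, Or.inl hcy⟩))
  have hsq : ∀ v, app (act y) (app (act y) v) = v := fun v => by
    rw [← app_mul, ← F.setup.act_mul _ _ hy hy, hy2, F.setup.act_one, app_one]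
  have hne : ∃ v, app (act y) v ≠ v := by
    by_contra hall
    push Not at hall
    exact hyQ ((F.setup.act_ker y hy).1 (iso_ext fun v => by rw [hall, app_one]))
  obtain ⟨σ, w, hσ, hσ0, hsw, hw0, hws, ey⟩ := exists_eq_E (F.setup.act_mem hy) hsq hne
  obtain ⟨m, hm, hstd⟩ := exists_standard hσ hσ0 hsw hw0 hws
  obtain ⟨k, hk, rfl⟩ := F.setup.exists_act hm
  have hky : k * y * k⁻¹ * (k * y * k⁻¹) = 1 := by
    rw [show k * y * k⁻¹ * (k * y * k⁻¹) = k * (y * y) * k⁻¹ by group, hy2]; group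
  have hact : ∀ {T : V}, (∀ x, app (act k) (E σ w x) = E e0 T (app (act k) x)) →
      ∀ v, app (act (k * y * k⁻¹)) v = E e0 T v := fun {T} h v => by
    rw [F.setup.act_conj hk hy, app_mul, app_mul, ey, h, app_app_inv]
  have hrel : Rel z y (k * y * k⁻¹) := ⟨k, hk, Or.inl rfl⟩
  rcases hstd with h | h
  · obtain ⟨ρ, hρ⟩ := stdCoset_two
    exact Or.inr (Or.inr (Or.inr (Or.inl (rel_trans F.setup.z_sq hrel
      (F.setup.rel_in_coset hρ (F.setup.comm_conj hk hy) hky (hact h) he.2 he2 ee)))))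
  · obtain ⟨ρ, hρ⟩ := stdCoset_four
    exact Or.inr (Or.inr (Or.inr (Or.inr (rel_trans F.setup.z_sq hrel
      (F.setup.rel_in_coset hρ (F.setup.comm_conj hk hy) hky (hact h) hT.comm hT.sq hT.map)))))

theorem isConj_of_rel {y b : G} (hb : IsConj z b) (hbz : IsConj z (b * z)) (h : Rel z y b) :
    IsConj z y := by
  obtain ⟨k, -, e | e⟩ := h
  · exact hb.trans (isConj_iff.2 ⟨k, e⟩).symm
  · exact hbz.trans (isConj_iff.2 ⟨k, e⟩).symm

theorem inU_z : F.InU z := ⟨by rw [F.g_inv_z]; exact F.s_mem, rfl⟩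

theorem isConj_t_of_rel {t y : G} (hT : IsT z act t) (h : Rel z y t) :
    ∃ k, k * z = z * k ∧ k * y * k⁻¹ = t := by
  obtain ⟨k, hk, e | e⟩ := h
  · exact ⟨k, hk, e⟩
  obtain ⟨x, hx, -, hxt⟩ := F.setup.mul_z_conj hT.comm hT.sq hT.map
  refine ⟨x * k, F.setup.comm_mul (F.setup.comm_Q hx) hk, ?_⟩
  rw [show x * k * y * (x * k)⁻¹ = x * (k * y * k⁻¹) * x⁻¹ by group, e,
    show x * (t * z) * x⁻¹ = x * t * x⁻¹ * (x * z * x⁻¹) by group, hxt, F.setup.comm_Q hx,
    mul_inv_cancel_right, mul_assoc, F.setup.z_sq, mul_one]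

theorem not_isConj {t : G} (hT : IsT z act t) : ¬ IsConj z t := by
  intro hconj
  obtain ⟨h0, hh0⟩ := isConj_iff.1 hconj.symm
  set y := h0 * z * h0⁻¹ with hy
  have hyz : y * z = z * y := by
    rw [← hh0, hy, show h0 * z * h0⁻¹ * (h0 * t * h0⁻¹) = h0 * (z * t) * h0⁻¹ by group, ← hT.comm]
    group
  have hy2 : y * y = 1 := by
    rw [hy, show h0 * z * h0⁻¹ * (h0 * z * h0⁻¹) = h0 * (z * z) * h0⁻¹ by group, F.setup.z_sq]; group
  have hy1 : y ≠ 1 := fun e => F.setup.z_ne (by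
    rw [show z = h0⁻¹ * y * h0 by rw [hy]; group, e]; group)
  have htQ : t ∉ Q := fun hQ => by
    have := hT.map e1
    rw [F.setup.act_Q hQ, app_one] at this
    exact absurd this (by decide)
  have hyne : y ≠ z := fun e => htQ (by
    have : z = t := by
      have := e.trans hh0.symm
      rw [hy] at this
      exact mul_left_cancel (mul_right_cancel this)
    rw [← this]; exact F.setup.z_mem)
  obtain ⟨c, e, hc, hcs, hce, ho, hcne, he, he2, ee⟩ := F.exists_odd_singular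
  have hbad : ∀ {c' : G}, c' * z = z * c' → c' * y = y * c' → Odd (orderOf c') → c' ≠ 1 → False := by
    intro c' h1 h2 h3 h4
    refine h4 ?_
    have hd := F.no_odd hT (c := h0⁻¹ * c' * h0)
      (by
        calc h0⁻¹ * c' * h0 * z = h0⁻¹ * (c' * y) * h0 := by rw [hy]; group
          _ = z * (h0⁻¹ * c' * h0) := by rw [h2, hy]; group)
      (by
        calc h0⁻¹ * c' * h0 * t = h0⁻¹ * (c' * (h0 * t * h0⁻¹)) * h0 := by group
          _ = h0⁻¹ * (z * c') * h0 := by rw [hh0, h1]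
          _ = t * (h0⁻¹ * c' * h0) := by rw [← hh0]; group)
      (odd_orderOf_conj h0 c' h3)
    rw [show c' = h0 * (h0⁻¹ * c' * h0) * h0⁻¹ by group, hd]; group
  rcases F.classify he he2 ee hT hyz hy2 with h | h | h | h | h
  · exact hy1 h
  · exact hyne h
  · obtain ⟨c', a1, a2, a3, a4⟩ := F.rel_singular hyz h hc hcs ho hcne
    exact hbad a1 a2 a3 a4
  · obtain ⟨c', a1, a2, a3, a4⟩ := F.rel_singular hyz h hc hce ho hcne
    exact hbad a1 a2 a3 a4
  obtain ⟨k, hk, hky⟩ := F.isConj_t_of_rel hT h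
  set H := k * h0 with hH
  have Hz : H * z * H⁻¹ = t := by
    rw [← hky, hy, hH]; group
  have Ht : H * t * H⁻¹ = z := by
    rw [hH, show k * h0 * t * (k * h0)⁻¹ = k * (h0 * t * h0⁻¹) * k⁻¹ by group, hh0, hk,
      mul_inv_cancel_right]
  set W := Subgroup.centralizer ({z} : Set G) ⊓ Subgroup.centralizer ({t} : Set G) with hWdef
  have hW : ∀ m, m ∈ W ↔ m * z = z * m ∧ m * t = t * m := fun m => by
    rw [hWdef, Subgroup.mem_inf, mem_cent_iff, mem_cent_iff]
  obtain ⟨hz, hall⟩ := F.gamma hT hW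
  have hmap : W.map (MulAut.conj H).toMonoidHom = W := by
    refine Subgroup.eq_of_le_of_card_ge ?_
      (Subgroup.card_map_of_injective (MulAut.conj H).injective).ge
    rintro _ ⟨m, hm, rfl⟩
    obtain ⟨a, b⟩ := (hW m).1 hm
    refine (hW _).2 ⟨?_, ?_⟩
    · show H * m * H⁻¹ * z = z * (H * m * H⁻¹)
      rw [← Ht, show H * m * H⁻¹ * (H * t * H⁻¹) = H * (m * t) * H⁻¹ by group, b]; group
    · show H * m * H⁻¹ * t = t * (H * m * H⁻¹)
      rw [← Hz, show H * m * H⁻¹ * (H * z * H⁻¹) = H * (m * z) * H⁻¹ by group, a]; group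
  have htm : t ∈ ⁅⁅W, W⁆, W⁆ := by
    have : (MulAut.conj H).toMonoidHom z ∈ (⁅⁅W, W⁆, W⁆).map (MulAut.conj H).toMonoidHom :=
      ⟨z, hz, rfl⟩
    rw [Subgroup.map_commutator, Subgroup.map_commutator, hmap] at this
    rwa [show (MulAut.conj H).toMonoidHom z = H * z * H⁻¹ from rfl, Hz] at this
  exact htQ ((F.setup.act_ker t hT.comm).1 (hall t htm).2)

theorem two_classes :
    ∃ a b : G, orderOf a = 2 ∧ orderOf b = 2 ∧ ¬ IsConj a b ∧
      ∀ x : G, orderOf x = 2 → IsConj x a ∨ IsConj x b := by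
  haveI : Fact (Nat.Prime 2) := ⟨Nat.prime_two⟩
  obtain ⟨t, hT⟩ := F.exists_t
  obtain ⟨e, he, he2, ee⟩ := F.exists_e
  have h2 : ∀ {m : G}, m * m = 1 → m ≠ 1 → orderOf m = 2 := fun h1 h2 =>
    orderOf_eq_prime (by rw [sq, h1]) h2
  have ht1 : t ≠ 1 := fun e' => by
    have := hT.map e1
    rw [e', F.setup.act_one, app_one] at this
    exact absurd this (by decide)
  refine ⟨z, t, F.setup.setting.order, h2 hT.sq ht1, F.not_isConj hT, fun x hx => ?_⟩
  have hL := LargeExtraspecial.isLarge_of_conj_mem F.setup.setting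
    (by rw [F.setup.card_Q]; norm_num) g (by rw [F.g_z]; exact F.s_mem)
    (by rw [F.g_z]; exact F.s_ne_z)
  obtain ⟨S, -, hS⟩ := LargeExtraspecial.exists_sylow_central hL F.setup.setting
  have hxp : IsPGroup 2 ↥(Subgroup.zpowers x) :=
    IsPGroup.of_card (n := 1) (by rw [Nat.card_zpowers, hx, pow_one])
  obtain ⟨R, hR⟩ := hxp.exists_le_sylow
  obtain ⟨k, hk⟩ := MulAction.exists_smul_eq G R S
  set y := k * x * k⁻¹ with hy
  have hyS : y ∈ (S : Subgroup G) := by
    rw [← hk, Sylow.coe_subgroup_smul]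
    exact ⟨x, hR (Subgroup.mem_zpowers x), rfl⟩
  have hxy : IsConj x y := isConj_iff.2 ⟨k, rfl⟩
  have hxx : x * x = 1 := by rw [← sq, ← hx, pow_orderOf_eq_one]
  have hy2 : y * y = 1 := by
    rw [hy, show k * x * k⁻¹ * (k * x * k⁻¹) = k * (x * x) * k⁻¹ by group, hxx]; group
  have hy1 : y ≠ 1 := fun e' => by
    have : x = 1 := by rw [show x = k⁻¹ * y * k by rw [hy]; group, e']; group
    rw [this, orderOf_one] at hx; omega
  have hzs : IsConj z s := isConj_iff.2 ⟨g, F.g_z⟩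
  rcases F.classify he he2 ee hT (hS y hyS) hy2 with h | h | h | h | h
  · exact absurd h hy1
  · exact Or.inl (h ▸ hxy)
  · left
    refine hxy.trans (F.isConj_of_rel hzs ?_ h).symm
    obtain ⟨m, hm, e'⟩ := F.setup.conj_move F.s_mem (by rw [F.s_pr]; exact e0_ne)
    exact hzs.trans (isConj_iff.2 ⟨m, e'⟩)
  · left
    have heQ : e ∉ Q := fun hQ => by
      have := ee e3
      rw [F.setup.act_Q hQ, app_one] at this
      exact absurd this (by decide)
    refine hxy.trans (F.isConj_of_rel (F.isConj_of_inU he he2 heQ)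
      (F.isConj_of_inU (F.inU_mul he F.inU_z) ?_ fun h' => heQ ?_) h).symm
    · calc e * z * (e * z) = e * (z * e) * z := by group
        _ = e * e * (z * z) := by rw [← he.2]; group
        _ = 1 := by rw [he2, F.setup.z_sq, one_mul]
    · have := Q.mul_mem h' F.setup.z_mem
      rwa [mul_assoc, F.setup.z_sq, mul_one] at this
  · obtain ⟨m, -, e'⟩ := F.isConj_t_of_rel hT h
    exact Or.inr (hxy.trans (isConj_iff.2 ⟨m, e'⟩))

end Frame

end CfsgLib.SuzType
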