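import Cfsg.Agent.SuzType.Frame

/-!
The involutions in a coset of `Q` over a standard Eichler map.
-/

set_option autoImplicit false
set_option synthInstance.maxSize 2000
set_option linter.unusedSectionVars false

namespace CfsgLib.SuzType

open Cfsg

theorem vadd_cancel_left (u v : V) : u + (u + v) = v := by rw [← add_assoc, vadd_self, zero_add]

/-- The span of `e0` and `T`. -/
def inU2 (T d : V) : Prop := d = 0 ∨ d = e0 ∨ d = T ∨ d = e0 + T

instance (T d : V) : Decidable (inU2 T d) := inferInstanceAs (Decidable (_ ∨ _))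

/-- The class representative. -/
def cl (a b : V) (k : Bool × Bool) : V := (if k.1 then a else 0) + (if k.2 then b else 0)

theorem inU2_add {T : V} {x y : V} (hx : inU2 T x) (hy : inU2 T y) : inU2 T (x + y) := by
  rcases hx with rfl | rfl | rfl | rfl <;> rcases hy with rfl | rfl | rfl | rfl <;>
    simp [inU2, vadd_self, vadd_cancel, vadd_cancel_left, add_comm, add_left_comm]

theorem cl_add (a b : V) (k l : Bool × Bool) :
    cl a b k + cl a b l = cl a b (xor k.1 l.1, xor k.2 l.2) := by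
  rcases k with ⟨⟨⟩, ⟨⟩⟩ <;> rcases l with ⟨⟨⟩, ⟨⟩⟩ <;>
    simp [cl, vadd_self, vadd_cancel, vadd_cancel_left, add_comm, add_left_comm]

/-- A standard coset: `a` and `b` span the perpendicular modulo the pair, `ρ` permutes their span
cyclically. -/
structure StdCoset (T a b : V) (ρ : Iso) : Prop where
  inW_a : inW T a
  inW_b : inW T b
  B_ab : B a b = 1
  split : ∀ x, inW T x → ∃ k : Bool × Bool, inU2 T (x + cl a b k)
  range : ∀ d, inU2 T d → ∃ y : V, E e0 T y + y = d
  fixed : ∀ x, E e0 T x = x → inW T x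
  perp : ∀ d x, inU2 T d → inW T x → B d x = 0
  mem : ρ ∈ Omega (ZMod 2) Q6
  cube : ρ ^ 3 = 1
  fix_s : app ρ e0 = e0
  fix_T : app ρ T = T
  map_a : app ρ a = b
  map_b : app ρ b = a + b

theorem rho_two_cube : ∀ x : V,
    (fun y : V => y + B y e5 • e5 + B (y + B y e5 • e5) e4 • e4)
      ((fun y : V => y + B y e5 • e5 + B (y + B y e5 • e5) e4 • e4)
        ((fun y : V => y + B y e5 • e5 + B (y + B y e5 • e5) e4 • e4) x)) = x := by
  decide +kernel

theorem rho_four_cube : ∀ x : V,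
    (fun y : V => y + B y (e3 + e4) • (e3 + e4) +
        B (y + B y (e3 + e4) • (e3 + e4)) (e2 + e4) • (e2 + e4))
      ((fun y : V => y + B y (e3 + e4) • (e3 + e4) +
        B (y + B y (e3 + e4) • (e3 + e4)) (e2 + e4) • (e2 + e4))
        ((fun y : V => y + B y (e3 + e4) • (e3 + e4) +
          B (y + B y (e3 + e4) • (e3 + e4)) (e2 + e4) • (e2 + e4)) x)) = x := by
  decide +kernel

theorem split_two : ∀ x : V, inW e2 x → ∃ k : Bool × Bool, inU2 e2 (x + cl e4 e5 k) := by
  decide +kernel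

theorem split_four : ∀ x : V, inW e4 x → ∃ k : Bool × Bool, inU2 e4 (x + cl (e2 + e4) (e3 + e4) k) := by
  decide +kernel

theorem perp_two : ∀ d : V, inU2 e2 d → ∀ x : V, inW e2 x → B d x = 0 := by decide +kernel

theorem perp_four : ∀ d : V, inU2 e4 d → ∀ x : V, inW e4 x → B d x = 0 := by decide +kernel

theorem stdCoset_two : ∃ ρ, StdCoset e2 e4 e5 ρ := by
  have h4 : q e4 = 1 := q_e4
  have h5 : q e5 = 1 := by decide
  refine ⟨rf e4 h4 * rf e5 h5, ⟨by decide, by decide, by decide, split_two, range_two,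
    fun x => (fixed_iff_two x).1, fun d x hd hx => perp_two d hd x hx, rf_mul_rf _ _ _ _, ?_, ?_, ?_, ?_, ?_⟩⟩
  · refine iso_ext fun x => ?_
    rw [app_one, pow_succ, pow_succ, pow_one, app_mul, app_mul]
    simp only [app_mul, app_rf]
    exact rho_two_cube x
  all_goals rw [app_mul, app_rf, app_rf]; decide +kernel

theorem stdCoset_four : ∃ ρ, StdCoset e4 (e2 + e4) (e3 + e4) ρ := by
  have h4 : q (e2 + e4) = 1 := by decide
  have h5 : q (e3 + e4) = 1 := by decide
  refine ⟨rf _ h4 * rf _ h5, ⟨by decide, by decide, by decide, split_four, range_four,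
    fun x => (fixed_iff_four x).1, fun d x hd hx => perp_four d hd x hx, rf_mul_rf _ _ _ _, ?_, ?_, ?_, ?_, ?_⟩⟩
  · refine iso_ext fun x => ?_
    rw [app_one, pow_succ, pow_succ, pow_one, app_mul, app_mul]
    simp only [app_mul, app_rf]
    exact rho_four_cube x
  all_goals rw [app_mul, app_rf, app_rf]; decide +kernel

/-- Conjugation in the centralizer of `z`, up to a factor `z`. -/
def Rel {G : Type*} [Group G] (z a b : G) : Prop :=
  ∃ k, k * z = z * k ∧ (k * a * k⁻¹ = b ∨ k * a * k⁻¹ = b * z)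

theorem rel_trans {G : Type*} [Group G] {z a b c : G} (hz : z * z = 1) (h : Rel z a b)
    (h' : Rel z b c) : Rel z a c := by
  obtain ⟨k, hk, e⟩ := h
  obtain ⟨l, hl, e'⟩ := h'
  have hlz : l * z * l⁻¹ = z := by rw [hl, mul_inv_cancel_right]
  refine ⟨l * k, ?_, ?_⟩
  · calc l * k * z = l * (k * z) := mul_assoc _ _ _
      _ = l * z * k := by rw [hk]; group
      _ = z * (l * k) := by rw [hl, mul_assoc]
  · rcases e with e | e <;> rcases e' with e' | e'
    · left; rw [← e', ← e]; group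
    · right; rw [← e', ← e]; group
    · right; rw [show l * k * a * (l * k)⁻¹ = l * (k * a * k⁻¹) * l⁻¹ by group, e,
        show l * (b * z) * l⁻¹ = l * b * l⁻¹ * (l * z * l⁻¹) by group, e', hlz]
    · left; rw [show l * k * a * (l * k)⁻¹ = l * (k * a * k⁻¹) * l⁻¹ by group, e,
        show l * (b * z) * l⁻¹ = l * b * l⁻¹ * (l * z * l⁻¹) by group, e', hlz, mul_assoc, hz, mul_one]

theorem rel_symm {G : Type*} [Group G] {z a b : G} (hz : z * z = 1) (h : Rel z a b) : Rel z b a := by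
  obtain ⟨k, hk, e⟩ := h
  have hk' : k⁻¹ * z = z * k⁻¹ := (Commute.inv_left (show Commute k z from hk)).eq
  refine ⟨k⁻¹, hk', ?_⟩
  rcases e with e | e
  · left; rw [← e]; group
  · right
    have hb : b = k * a * k⁻¹ * z := by rw [e, mul_assoc, hz, mul_one]
    rw [hb, show k⁻¹ * (k * a * k⁻¹ * z) * k⁻¹⁻¹ = a * (k⁻¹ * z * k) by group, hk',
      inv_mul_cancel_right]

variable {G : Type*} [Group G] [Finite G] {z : G} {Q : Subgroup G} {pr : G → V} {act : G → Iso}

namespace Setup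

variable (h : Setup z Q pr act)
include h

theorem mul_inv_mem {t t' : G} (ht : t * z = z * t) (ht' : t' * z = z * t') (e : act t = act t') :
    t⁻¹ * t' ∈ Q := by
  refine (h.act_ker _ (h.comm_mul (h.comm_inv ht) ht')).1 ?_
  rw [h.act_mul _ _ (h.comm_inv ht) ht', h.act_inv ht, inv_mul_eq_one, e]

theorem pr_inW {T a b : V} {ρ : Iso} (hT : StdCoset T a b ρ) {t x : G} (ht : t * z = z * t)
    (ht2 : t * t = 1) (et : ∀ v, app (act t) v = E e0 T v) (hx : x ∈ Q)
    (hsq : t * x * (t * x) = 1) : inW T (pr x) := by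
  refine hT.fixed _ ?_
  rw [← et, ← h.act_pr t ht x hx]
  have e : t * x * t⁻¹ = x⁻¹ := by
    rw [inv_eq_of_mul_eq_one_left (show t * t = 1 from ht2)]
    refine eq_inv_of_mul_eq_one_left ?_
    rw [← hsq, mul_assoc (t * x)]
  rw [e, h.pr_inv hx]

/-- Translates in one class are related, and a related translate can be prescribed. -/
theorem same_class {T a b : V} {ρ : Iso} (hT : StdCoset T a b ρ) {t x x' : G} (ht : t * z = z * t)
    (ht2 : t * t = 1) (et : ∀ v, app (act t) v = E e0 T v) (hx : x ∈ Q) (hx' : x' ∈ Q)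
    (hd : inU2 T (pr x + pr x')) : Rel z (t * x) (t * x') := by
  obtain ⟨v, hv⟩ := hT.range _ hd
  obtain ⟨y, hy, rfl⟩ := h.pr_surj v
  refine ⟨y, h.comm_Q hy, ?_⟩
  have hti : t⁻¹ = t := inv_eq_of_mul_eq_one_left ht2
  have hm1 : t * y * t⁻¹ ∈ Q := h.conj_mem ht hy
  have hmem : t * y * t⁻¹ * x * y⁻¹ ∈ Q := Q.mul_mem (Q.mul_mem hm1 hx) (Q.inv_mem hy)
  have hpr : pr (t * y * t⁻¹ * x * y⁻¹) = pr x' := by
    rw [h.pr_mul _ (Q.mul_mem hm1 hx) _ (Q.inv_mem hy), h.pr_mul _ hm1 _ hx, h.pr_inv hy,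
      h.act_pr t ht y hy, et]
    refine eq_of_vadd ?_
    calc E e0 T (pr y) + pr x + pr y + pr x' = (E e0 T (pr y) + pr y) + (pr x + pr x') := by abel
      _ = 0 := by rw [hv, vadd_self]
  have e : y * (t * x) * y⁻¹ = t * (t * y * t⁻¹ * x * y⁻¹) := by
    conv_lhs => rw [show y * (t * x) * y⁻¹ = t * (t⁻¹ * y * t * x * y⁻¹) by group]
    rw [hti]
  rcases h.pr_congr hmem hx' hpr with e' | e'
  · left; rw [e, e']
  · right; rw [e, e', mul_assoc]

theorem sq_of_rel {u v : G} (hv : v * z = z * v) (hu : u * u = 1) (hr : Rel z u v) : v * v = 1 := by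
  obtain ⟨k, hk, e | e⟩ := hr
  · rw [← e, show k * u * k⁻¹ * (k * u * k⁻¹) = k * (u * u) * k⁻¹ by group, hu]; group
  · have : v = k * u * k⁻¹ * z := by rw [e, mul_assoc, h.z_sq, mul_one]
    calc v * v = v * v * (z * z) := by rw [h.z_sq, mul_one]
      _ = v * (v * z) * z := by group
      _ = v * (z * v) * z := by rw [hv]
      _ = (v * z) * (v * z) := by group
      _ = 1 := by
        rw [← e, show k * u * k⁻¹ * (k * u * k⁻¹) = k * (u * u) * k⁻¹ by group, hu]; group

/-- All involutions in a standard coset are conjugate up to a factor `z`. -/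
theorem rel_in_coset {T a b : V} {ρ : Iso} (hT : StdCoset T a b ρ) {t t' : G} (ht : t * z = z * t)
    (ht2 : t * t = 1) (et : ∀ v, app (act t) v = E e0 T v) (ht' : t' * z = z * t') (ht2' : t' * t' = 1)
    (et' : ∀ v, app (act t') v = E e0 T v) : Rel z t t' := by
  classical
  have hti : t⁻¹ = t := inv_eq_of_mul_eq_one_left ht2
  obtain ⟨c, hc, hcρ, -⟩ := h.exists_odd_lift hT.mem (n := 3) (by decide) hT.cube
  set x0 := t⁻¹ * (c * t * c⁻¹) with hx0
  have hact : act (c * t * c⁻¹) = act t := iso_ext fun v => by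
    rw [h.act_conj hc ht, app_mul, app_mul, et, app_E, app_app_inv, hcρ, hT.fix_s, hT.fix_T, et]
  have hx0Q : x0 ∈ Q := h.mul_inv_mem ht (h.comm_conj hc ht) hact.symm
  have hx0s : t * x0 * (t * x0) = 1 := by
    rw [hx0, show t * (t⁻¹ * (c * t * c⁻¹)) * (t * (t⁻¹ * (c * t * c⁻¹))) = c * (t * t) * c⁻¹ by
      group, ht2]
    group
  obtain ⟨v0, hv0⟩ := hT.split _ (h.pr_inW hT ht ht2 et hx0Q hx0s)
  let P : Bool × Bool → Prop := fun k =>
    ∃ x ∈ Q, t * x * (t * x) = 1 ∧ inU2 T (pr x + cl a b k)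
  let K : Bool × Bool → Bool := fun k => decide (P k)
  have hK : ∀ k, K k = true ↔ P k := fun k => by simp [K]
  have hρU : ∀ d, inU2 T d → app (act c) d = d := by
    rintro d (rfl | rfl | rfl | rfl) <;> simp [app_zero, app_add, hcρ, hT.fix_s, hT.fix_T]
  have hσ : ∀ k : Bool × Bool, app (act c) (cl a b k) = cl a b (k.2, xor k.1 k.2) := by
    rintro ⟨⟨⟩, ⟨⟩⟩ <;>
      simp [cl, hcρ, app_zero, app_add, hT.map_a, hT.map_b, vadd_cancel, vadd_self, add_comm,
        add_left_comm]
  have hstep : ∀ x ∈ Q, ∀ k, t * x * (t * x) = 1 → inU2 T (pr x + cl a b k) →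
      x0 * (c * x * c⁻¹) ∈ Q ∧ t * (x0 * (c * x * c⁻¹)) * (t * (x0 * (c * x * c⁻¹))) = 1 ∧
      inU2 T (pr (x0 * (c * x * c⁻¹)) + cl a b (xor k.2 v0.1, xor (xor k.1 k.2) v0.2)) ∧
      c * (t * x) * c⁻¹ = t * (x0 * (c * x * c⁻¹)) := by
    intro x hx k hsq hk
    have e : c * (t * x) * c⁻¹ = t * (x0 * (c * x * c⁻¹)) := by rw [hx0]; group
    refine ⟨Q.mul_mem hx0Q (h.conj_mem hc hx), ?_, ?_, e⟩
    · rw [← e, show c * (t * x) * c⁻¹ * (c * (t * x) * c⁻¹) = c * (t * x * (t * x)) * c⁻¹ by group,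
        hsq]
      group
    · rw [h.pr_mul _ hx0Q _ (h.conj_mem hc hx), h.act_pr c hc x hx]
      have hk' : inU2 T (app (act c) (pr x) + cl a b (k.2, xor k.1 k.2)) := by
        rw [← hσ, ← app_add, hρU _ hk]; exact hk
      have := inU2_add hv0 hk'
      rw [show pr x0 + cl a b v0 + (app (act c) (pr x) + cl a b (k.2, xor k.1 k.2)) =
        pr x0 + app (act c) (pr x) + (cl a b (k.2, xor k.1 k.2) + cl a b v0) by abel, cl_add] at this
      exact this
  have hU0 : inU2 T 0 := Or.inl rfl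
  have h1 : t * (1 : G) * (t * 1) = 1 := by rw [mul_one, ht2]
  have hk1 : inU2 T (pr 1 + cl a b (false, false)) := by rw [h.pr_one]; simp [cl, hU0]
  have hK0 : K (false, false) = true := (hK _).2 ⟨1, Q.one_mem, h1, hk1⟩
  have hKσ : ∀ k, K k = true → K (xor k.2 v0.1, xor (xor k.1 k.2) v0.2) = true := by
    intro k hk
    obtain ⟨x, hx, hsq, hu⟩ := (hK k).1 hk
    obtain ⟨a1, a2, a3, -⟩ := hstep x hx k hsq hu
    exact (hK _).2 ⟨_, a1, a2, a3⟩
  have hKn : ∃ k, K k = false := by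
    by_contra hall
    push Not at hall
    simp only [Bool.not_eq_false] at hall
    obtain ⟨x, hx, hsx, hxa⟩ := (hK _).1 (hall (true, false))
    obtain ⟨x', hx', hsx', hxb⟩ := (hK _).1 (hall (false, true))
    obtain ⟨x'', hx'', hsx'', hxc⟩ := (hK _).1 (hall (true, true))
    have hd : inU2 T (pr x'' + pr (x * x')) := by
      rw [h.pr_mul _ hx _ hx']
      have := inU2_add (inU2_add hxa hxb) hxc
      rw [show pr x + cl a b (true, false) + (pr x' + cl a b (false, true)) +
          (pr x'' + cl a b (true, true)) = pr x'' + (pr x + pr x') +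
          (cl a b (true, false) + cl a b (false, true) + cl a b (true, true)) by abel, cl_add, cl_add]
        at this
      simpa [cl] using this
    have hsq : t * (x * x') * (t * (x * x')) = 1 :=
      h.sq_of_rel (h.comm_mul ht (h.comm_Q (Q.mul_mem hx hx'))) hsx''
        (h.same_class hT ht ht2 et hx'' (Q.mul_mem hx hx') hd)
    have inv : ∀ y, t * y * (t * y) = 1 → t * y * t = y⁻¹ := fun y hy =>
      eq_inv_of_mul_eq_one_left (by rw [← hy, mul_assoc (t * y)])
    have e1 := inv x hsx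
    have e2 := inv x' hsx'
    have e3 := inv _ hsq
    have e4 : t * (x * x') * t = x⁻¹ * x'⁻¹ := by
      rw [← e1, ← e2]
      calc t * (x * x') * t = t * x * 1 * x' * t := by group
        _ = t * x * (t * t) * x' * t := by rw [ht2]
        _ = t * x * t * (t * x' * t) := by group
    have hcomm : x * x' = x' * x := by
      apply inv_injective
      rw [mul_inv_rev x' x, ← e4, e3]
    have hB := h.B_of_commute hx hx' hcomm
    have hwx := h.pr_inW hT ht ht2 et hx hsx
    have ha : pr x = a + (pr x + cl a b (true, false)) := by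
      simp [cl]; rw [add_comm (pr x), ← add_assoc, vadd_self, zero_add]
    have hb : pr x' = b + (pr x' + cl a b (false, true)) := by
      simp [cl]; rw [add_comm (pr x'), ← add_assoc, vadd_self, zero_add]
    have hWb := h.pr_inW hT ht ht2 et hx' hsx'
    rw [ha, B_add_left, B_comm a, hb, B_add_left, B_comm b a, hT.B_ab,
      hT.perp _ a hxb hT.inW_a, add_zero] at hB
    rw [← hb, hT.perp _ _ hxa hWb, add_zero] at hB
    exact one_ne_zero hB
  have hy := h.mul_inv_mem ht ht' (iso_ext fun v => by rw [et, et'])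
  set x := t⁻¹ * t' with hxdef
  have hsx : t * x * (t * x) = 1 := by rw [hxdef, mul_inv_cancel_left, ht2']
  obtain ⟨k, hk⟩ := hT.split _ (h.pr_inW hT ht ht2 et hy hsx)
  have hgoal : ∀ {k'} {x'}, x' ∈ Q → inU2 T (pr x' + cl a b k') → k' = k →
      Rel z (t * x') t' := by
    intro k' x' hx' hu e
    subst e
    have := inU2_add hu hk
    rw [show pr x' + cl a b k' + (pr x + cl a b k') = pr x' + pr x + (cl a b k' + cl a b k') by abel,
      vadd_self, add_zero] at this
    have r := h.same_class hT ht ht2 et hx' hy this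
    simp only [hxdef, mul_inv_cancel_left] at r
    exact r
  have rc : ∀ {u v : G}, c * u * c⁻¹ = v → Rel z u v := fun e => ⟨c, hc, Or.inl e⟩
  obtain ⟨a1, a2, a3, a4⟩ := hstep 1 Q.one_mem _ h1 hk1
  obtain ⟨b1, b2, b3, b4⟩ := hstep _ a1 _ a2 a3
  rw [mul_one] at a4
  rcases affine_orbit K v0 hK0 hKσ hKn k ((hK k).2 ⟨x, hy, hsx, hk⟩) with e | e | e
  · have := hgoal Q.one_mem hk1 e.symm
    rwa [mul_one] at this
  · exact rel_trans h.z_sq (rc a4) (hgoal a1 a3 (by rw [e]; simp))
  · exact rel_trans h.z_sq (rel_trans h.z_sq (rc a4) (rc b4)) (hgoal b1 b3 (by rw [e]; simp))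

end Setup

theorem exists_range_e4 : ∃ y : V, E e0 e4 y + y = e4 := range_four e4 (Or.inr (Or.inr (Or.inl rfl)))

theorem Setup.mul_z_conj {z : G} {Q : Subgroup G} {pr : G → V} {act : G → Iso}
    (h : Setup z Q pr act) {t : G} (ht : t * z = z * t) (ht2 : t * t = 1)
    (et : ∀ v, app (act t) v = E e0 e4 v) :
    ∃ x ∈ Q, pr x = e4 ∧ x * t * x⁻¹ = t * z := by
  obtain ⟨v, hv⟩ := exists_range_e4
  obtain ⟨y, hy, rfl⟩ := h.pr_surj v
  have hti : t⁻¹ = t := inv_eq_of_mul_eq_one_left ht2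
  set x := t * y * t⁻¹ * y⁻¹ with hx
  have hm := h.conj_mem ht hy
  have hxQ : x ∈ Q := Q.mul_mem hm (Q.inv_mem hy)
  have hpx : pr x = e4 := by
    rw [hx, h.pr_mul _ hm _ (Q.inv_mem hy), h.pr_inv hy, h.act_pr t ht y hy, et, hv]
  have hx2 : x * x = z := h.sq_eq_z hxQ (by rw [hpx, q_e4])
  have e : t * x * (t * x) = 1 := by
    have : t * x = y * t * y⁻¹ := by
      rw [hx, hti, show t * (t * y * t * y⁻¹) = (t * t) * (y * t * y⁻¹) by group, ht2, one_mul]
    rw [this, show y * t * y⁻¹ * (y * t * y⁻¹) = y * (t * t) * y⁻¹ by group, ht2]; group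
  refine ⟨x, hxQ, hpx, ?_⟩
  have hxi : x⁻¹ = x * z := inv_eq_of_mul_eq_one_right (by rw [← mul_assoc, hx2, h.z_sq])
  have e' : x * t * x = t := by
    calc x * t * x = (t * t) * (x * t * x) := by rw [ht2, one_mul]
      _ = t * (t * x * (t * x)) := by group
      _ = t := by rw [e, mul_one]
  rw [hxi, ← mul_assoc, e']

end CfsgLib.SuzType
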