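import Cfsg.Agent.SuzType.Setup
import Cfsg.Agent.LargeExtraspecial.Pair
import Cfsg.Agent.LargeExtraspecial.Structure

/-!
The two conjugate involutions `z` and `s`, the element interchanging them and the intersection of
their extraspecial subgroups with the centralizer.
-/

set_option autoImplicit false
set_option synthInstance.maxSize 2000
set_option linter.unusedSectionVars false
set_option linter.unusedVariables false

namespace CfsgLib.SuzType

open Cfsg

variable {G : Type*} [Group G] [Finite G]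

theorem exists_nonperp : ∀ v : V, v ≠ 0 → ∃ y : V, B v y = 1 := by decide +kernel

/-- An element of odd order normalizing a coset modulo a fixed involution fixes its representative. -/
theorem eq_one_of_odd_conj {c a d : G} (hc : Odd (orderOf c)) (hd : d * d = 1) (hcd : c * d = d * c)
    (h : c * a * c⁻¹ = a * d) : d = 1 := by
  have key : ∀ m : ℕ, c ^ m * a * (c ^ m)⁻¹ = a * d ^ m := by
    intro m
    induction m with
    | zero => simp
    | succ m ih =>
      rw [pow_succ' c m, mul_inv_rev, show c * c ^ m * a * ((c ^ m)⁻¹ * c⁻¹) =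
        c * (c ^ m * a * (c ^ m)⁻¹) * c⁻¹ by group, ih,
        show c * (a * d ^ m) * c⁻¹ = c * a * c⁻¹ * (c * d ^ m * c⁻¹) by group, h,
        ((show Commute c d from hcd).pow_right m).eq, mul_inv_cancel_right, mul_assoc, ← pow_succ']
  have := key (orderOf c)
  rw [pow_orderOf_eq_one] at this
  simp only [one_mul, inv_one, mul_one] at this
  obtain ⟨k, hk⟩ := hc
  rw [hk, pow_succ, pow_mul, sq, hd, one_pow, one_mul] at this
  exact mul_eq_left.1 this.symm

namespace Setup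

variable {z : G} {Q : Subgroup G} {pr : G → V} {act : G → Iso} (h : Setup z Q pr act)
include h

theorem z_sq : z * z = 1 := h.setting.z_mul_z

theorem z_ne : z ≠ 1 := h.setting.z_ne_one

theorem z_mem : z ∈ Q := h.setting.z_mem

theorem comm_Q {a : G} (ha : a ∈ Q) : a * z = z * a := h.setting.comm ha

theorem comm_inv {a : G} (ha : a * z = z * a) : a⁻¹ * z = z * a⁻¹ :=
  (Commute.inv_left (show Commute a z from ha)).eq

theorem comm_mul {a b : G} (ha : a * z = z * a) (hb : b * z = z * b) : a * b * z = z * (a * b) :=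
  (Commute.mul_left (show Commute a z from ha) (show Commute b z from hb)).eq

theorem comm_pow {a : G} (ha : a * z = z * a) (n : ℕ) : a ^ n * z = z * a ^ n :=
  (Commute.pow_left (show Commute a z from ha) n).eq

theorem comm_conj {c a : G} (hc : c * z = z * c) (ha : a * z = z * a) :
    c * a * c⁻¹ * z = z * (c * a * c⁻¹) := h.comm_mul (h.comm_mul hc ha) (h.comm_inv hc)

theorem conj_mem {c a : G} (hc : c * z = z * c) (ha : a ∈ Q) : c * a * c⁻¹ ∈ Q :=
  (h.setting.normalized c hc a).1 ha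

theorem act_Q {a : G} (ha : a ∈ Q) : act a = 1 := (h.act_ker a (h.comm_Q ha)).2 ha

theorem act_one : act 1 = 1 := h.act_Q Q.one_mem

theorem act_inv {a : G} (ha : a * z = z * a) : act a⁻¹ = (act a)⁻¹ := by
  refine eq_inv_of_mul_eq_one_left ?_
  rw [← h.act_mul _ _ (h.comm_inv ha) ha, inv_mul_cancel, h.act_one]

theorem act_pow {a : G} (ha : a * z = z * a) (n : ℕ) : act (a ^ n) = act a ^ n := by
  induction n with
  | zero => simp [h.act_one]
  | succ n ih => rw [pow_succ, h.act_mul _ _ (h.comm_pow ha n) ha, ih, pow_succ]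

theorem act_conj {a b : G} (ha : a * z = z * a) (hb : b * z = z * b) :
    act (a * b * a⁻¹) = act a * act b * (act a)⁻¹ := by
  rw [h.act_mul _ _ (h.comm_mul ha hb) (h.comm_inv ha), h.act_mul _ _ ha hb, h.act_inv ha]

theorem act_mem {c : G} (hc : c * z = z * c) : act c ∈ Omega (ZMod 2) Q6 :=
  (h.act_range _).2 ⟨c, hc, rfl⟩

theorem pr_one : pr 1 = 0 := (h.pr_zero 1 Q.one_mem).2 (Or.inl rfl)

theorem pr_z : pr z = 0 := (h.pr_zero z h.z_mem).2 (Or.inr rfl)

theorem pr_inv {a : G} (ha : a ∈ Q) : pr a⁻¹ = pr a := by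
  refine eq_of_vadd ?_
  rw [← h.pr_mul _ (Q.inv_mem ha) _ ha, inv_mul_cancel, h.pr_one]

theorem pr_congr {a b : G} (ha : a ∈ Q) (hb : b ∈ Q) (e : pr a = pr b) : a = b ∨ a = b * z := by
  rcases (h.pr_zero _ (Q.mul_mem (Q.inv_mem hb) ha)).1
    (by rw [h.pr_mul _ (Q.inv_mem hb) _ ha, h.pr_inv hb, e, vadd_self]) with e' | e'
  · exact Or.inl (inv_mul_eq_one.1 e').symm
  · exact Or.inr (inv_mul_eq_iff_eq_mul.1 e')

theorem sq_cases {a : G} (ha : a ∈ Q) : a * a = 1 ∨ a * a = z :=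
  (h.pr_zero _ (Q.mul_mem ha ha)).1 (by rw [h.pr_mul _ ha _ ha, vadd_self])

theorem sq_eq_z {a : G} (ha : a ∈ Q) (hq : q (pr a) = 1) : a * a = z :=
  (h.sq_cases ha).resolve_left fun e => by
    rw [(h.pr_sq a ha).2 e] at hq; exact zero_ne_one hq

theorem skew {a b : G} (ha : a ∈ Q) (hb : b ∈ Q) :
    (B (pr a) (pr b) = 0 ∧ a * b = b * a) ∨ (B (pr a) (pr b) = 1 ∧ a * b = b * a * z) := by
  have hpr : pr ((b * a)⁻¹ * (a * b)) = 0 := by
    rw [h.pr_mul _ (Q.inv_mem (Q.mul_mem hb ha)) _ (Q.mul_mem ha hb), h.pr_inv (Q.mul_mem hb ha),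
      h.pr_mul _ hb _ ha, h.pr_mul _ ha _ hb, add_comm (pr b), vadd_self]
  have hq := q_add (pr a) (pr b)
  rw [← h.pr_mul _ ha _ hb] at hq
  have key : ∀ x y : G, x ∈ Q → y ∈ Q → x * x = 1 → y * y = 1 → q (pr x) = 0 ∧ q (pr y) = 0 :=
    fun x y hx hy ex ey => ⟨(h.pr_sq x hx).2 ex, (h.pr_sq y hy).2 ey⟩
  rcases (h.pr_zero _ (Q.mul_mem (Q.inv_mem (Q.mul_mem hb ha)) (Q.mul_mem ha hb))).1 hpr with e | e
  · left
    have hc : a * b = b * a := (inv_mul_eq_one.1 e).symm
    refine ⟨?_, hc⟩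
    have hsq : a * b * (a * b) = (a * a) * (b * b) := (show Commute b a from hc.symm).mul_mul_mul_comm a b
    have hab := Q.mul_mem ha hb
    rcases h.sq_cases ha with e1 | e1 <;> rcases h.sq_cases hb with e2 | e2 <;>
      rw [e1, e2] at hsq <;> simp only [one_mul, mul_one, h.z_sq] at hsq
    · rw [(h.pr_sq a ha).2 e1, (h.pr_sq b hb).2 e2, (h.pr_sq _ hab).2 hsq] at hq
      linear_combination -hq
    · rw [(h.pr_sq a ha).2 e1, (zmod_cases (q (pr b))).resolve_left fun x =>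
        h.z_ne (e2.symm.trans ((h.pr_sq b hb).1 x)),
        (zmod_cases (q (pr (a * b)))).resolve_left fun x =>
        h.z_ne (hsq.symm.trans ((h.pr_sq _ hab).1 x))] at hq
      linear_combination -hq
    · rw [(h.pr_sq b hb).2 e2, (zmod_cases (q (pr a))).resolve_left fun x =>
        h.z_ne (e1.symm.trans ((h.pr_sq a ha).1 x)),
        (zmod_cases (q (pr (a * b)))).resolve_left fun x =>
        h.z_ne (hsq.symm.trans ((h.pr_sq _ hab).1 x))] at hq
      linear_combination -hq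
    · rw [(zmod_cases (q (pr a))).resolve_left fun x =>
        h.z_ne (e1.symm.trans ((h.pr_sq a ha).1 x)), (zmod_cases (q (pr b))).resolve_left fun x =>
        h.z_ne (e2.symm.trans ((h.pr_sq b hb).1 x)), (h.pr_sq _ hab).2 hsq] at hq
      linear_combination -hq - two_zero
  · right
    have hc : a * b = b * a * z := inv_mul_eq_iff_eq_mul.1 e
    refine ⟨?_, hc⟩
    have hsq : a * b * (a * b) = z * ((a * a) * (b * b)) := by
      have hba : b * a = a * b * z := by rw [hc, mul_assoc, h.z_sq, mul_one]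
      calc a * b * (a * b) = a * (b * a) * b := by group
        _ = a * (a * b * z) * b := by rw [hba]
        _ = (a * a) * b * (z * b) := by group
        _ = (a * a) * b * (b * z) := by rw [h.comm_Q hb]
        _ = (a * a) * (b * b) * z := by group
        _ = z * ((a * a) * (b * b)) := h.comm_Q (Q.mul_mem (Q.mul_mem ha ha) (Q.mul_mem hb hb))
    have hab := Q.mul_mem ha hb
    rcases h.sq_cases ha with e1 | e1 <;> rcases h.sq_cases hb with e2 | e2 <;>
      rw [e1, e2] at hsq <;> simp only [one_mul, mul_one, h.z_sq] at hsq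
    · rw [(h.pr_sq a ha).2 e1, (h.pr_sq b hb).2 e2, (zmod_cases (q (pr (a * b)))).resolve_left
        fun x => h.z_ne (hsq.symm.trans ((h.pr_sq _ hab).1 x))] at hq
      linear_combination -hq
    · rw [(h.pr_sq a ha).2 e1, (zmod_cases (q (pr b))).resolve_left fun x =>
        h.z_ne (e2.symm.trans ((h.pr_sq b hb).1 x)), (h.pr_sq _ hab).2 hsq] at hq
      linear_combination -hq - two_zero
    · rw [(h.pr_sq b hb).2 e2, (zmod_cases (q (pr a))).resolve_left fun x =>
        h.z_ne (e1.symm.trans ((h.pr_sq a ha).1 x)), (h.pr_sq _ hab).2 hsq] at hq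
      linear_combination -hq - two_zero
    · rw [(zmod_cases (q (pr a))).resolve_left fun x =>
        h.z_ne (e1.symm.trans ((h.pr_sq a ha).1 x)), (zmod_cases (q (pr b))).resolve_left fun x =>
        h.z_ne (e2.symm.trans ((h.pr_sq b hb).1 x)), (zmod_cases (q (pr (a * b)))).resolve_left
        fun x => h.z_ne (hsq.symm.trans ((h.pr_sq _ hab).1 x))] at hq
      linear_combination -hq - two_zero

theorem commute_of {a b : G} (ha : a ∈ Q) (hb : b ∈ Q) (hB : B (pr a) (pr b) = 0) :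
    a * b = b * a := by
  rcases h.skew ha hb with ⟨-, e⟩ | ⟨e, -⟩
  · exact e
  · rw [hB] at e; exact absurd e zero_ne_one

theorem B_of_commute {a b : G} (ha : a ∈ Q) (hb : b ∈ Q) (e : a * b = b * a) :
    B (pr a) (pr b) = 0 := by
  rcases h.skew ha hb with ⟨e', -⟩ | ⟨-, e'⟩
  · exact e'
  · rw [e] at e'; exact absurd (mul_eq_left.1 e'.symm) h.z_ne

theorem conj_eq_mul_z {a b : G} (ha : a ∈ Q) (hb : b ∈ Q) (hB : B (pr a) (pr b) = 1) :
    a * b * a⁻¹ = b * z := by
  rcases h.skew ha hb with ⟨e, -⟩ | ⟨-, e⟩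
  · rw [hB] at e; exact absurd e one_ne_zero
  · rw [e, mul_assoc (b * a), ← h.comm_inv (h.comm_Q ha), ← mul_assoc, mul_inv_cancel_right]

theorem conj_move {a : G} (ha : a ∈ Q) (h0 : pr a ≠ 0) : ∃ y ∈ Q, y * a * y⁻¹ = a * z := by
  obtain ⟨v, hv⟩ := exists_nonperp _ h0
  obtain ⟨y, hy, rfl⟩ := h.pr_surj v
  exact ⟨y, hy, h.conj_eq_mul_z hy ha (by rw [B_comm]; exact hv)⟩

theorem exists_act {f : Iso} (hf : f ∈ Omega (ZMod 2) Q6) : ∃ c, c * z = z * c ∧ act c = f :=
  (h.act_range f).1 hf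

theorem exists_odd_lift {f : Iso} (hf : f ∈ Omega (ZMod 2) Q6) {n : ℕ} (hn : Odd n)
    (hfn : f ^ n = 1) : ∃ c, c * z = z * c ∧ act c = f ∧ Odd (orderOf c) := by
  obtain ⟨c, hc, rfl⟩ := h.exists_act hf
  obtain ⟨a, m, hm, e⟩ := Nat.exists_eq_two_pow_mul_odd (orderOf_pos c).ne'
  have hcop : Nat.Coprime n (2 ^ a) := (Nat.coprime_two_right.2 hn).pow_right a
  obtain ⟨k, hk1, hk2⟩ := Nat.chineseRemainder hcop 1 0
  refine ⟨c ^ k, h.comm_pow hc k, ?_, ?_⟩
  · rw [h.act_pow hc]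
    conv_rhs => rw [← pow_one (act c)]
    exact pow_eq_pow_iff_modEq.2 (hk1.of_dvd (orderOf_dvd_of_pow_eq_one hfn))
  · refine hm.of_dvd_nat (orderOf_dvd_of_pow_eq_one ?_)
    obtain ⟨j, rfl⟩ := (Nat.modEq_zero_iff_dvd).1 hk2
    rw [← pow_mul, show 2 ^ a * j * m = (2 ^ a * m) * j by ring, ← e, pow_mul, pow_orderOf_eq_one,
      one_pow]

theorem transitive {a b : G} (ha : a ∈ Q) (ha2 : a * a = 1) (ha1 : a ≠ 1) (haz : a ≠ z)
    (hb : b ∈ Q) (hb2 : b * b = 1) (hb1 : b ≠ 1) (hbz : b ≠ z) :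
    ∃ c, c * z = z * c ∧ c * a * c⁻¹ = b := by
  have hne : ∀ {x}, x ∈ Q → x ≠ 1 → x ≠ z → pr x ≠ 0 := fun hx h1 h2 e =>
    ((h.pr_zero _ hx).1 e).elim h1 h2
  obtain ⟨f, hf, hfa⟩ := exists_move_one ((h.pr_sq a ha).2 ha2) (hne ha ha1 haz)
  obtain ⟨g, hg, hgb⟩ := exists_move_one ((h.pr_sq b hb).2 hb2) (hne hb hb1 hbz)
  obtain ⟨c, hc, hcf⟩ := h.exists_act (mul_mem (inv_mem hg) hf)
  have hpr : pr (c * a * c⁻¹) = pr b := by
    rw [h.act_pr c hc a ha, hcf, app_mul, hfa, ← hgb, app_inv_app]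
  rcases h.pr_congr (h.conj_mem hc ha) hb hpr with e | e
  · exact ⟨c, hc, e⟩
  · obtain ⟨y, hy, hy'⟩ := h.conj_move hb (hne hb hb1 hbz)
    refine ⟨y * c, h.comm_mul (h.comm_Q hy) hc, ?_⟩
    calc y * c * a * (y * c)⁻¹ = y * (c * a * c⁻¹) * y⁻¹ := by group
      _ = y * b * y⁻¹ * (y * z * y⁻¹) := by rw [e]; group
      _ = b := by rw [hy', h.comm_Q hy, mul_inv_cancel_right, mul_assoc, h.z_sq, mul_one]

end Setup

/-- A second involution in `Q` conjugate to `z` and an element interchanging the two. -/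
structure Frame (z s g : G) (Q : Subgroup G) (pr : G → V) (act : G → Iso) : Prop where
  setup : Setup z Q pr act
  s_mem : s ∈ Q
  s_pr : pr s = e0
  g_z : g * z * g⁻¹ = s
  g_s : g * s * g⁻¹ = z

theorem Setup.exists_frame {z : G} {Q : Subgroup G} {pr : G → V} {act : G → Iso}
    (h : Setup z Q pr act) (g : G) (hgQ : g * z * g⁻¹ ∈ Q) (hgz : g * z * g⁻¹ ≠ z) :
    ∃ s k, Frame z s k Q pr act := by
  have hsq : ∀ x : G, x * z * x⁻¹ * (x * z * x⁻¹) = 1 := fun x => by
    rw [show x * z * x⁻¹ * (x * z * x⁻¹) = x * (z * z) * x⁻¹ by group, h.z_sq]; group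
  have hne1 : ∀ x : G, x * z * x⁻¹ ≠ 1 := fun x e => h.z_ne (by
    rw [show z = x⁻¹ * (x * z * x⁻¹) * x by group, e]; group)
  obtain ⟨s, hs, hspr⟩ := h.pr_surj e0
  have hs1 : s ≠ 1 := fun e => e0_ne (by rw [← hspr, e, h.pr_one])
  have hs2 : s ≠ z := fun e => e0_ne (by rw [← hspr, e, h.pr_z])
  have hs3 : s * s = 1 := (h.pr_sq s hs).1 (by rw [hspr, q_e0])
  obtain ⟨c, hc, hcs⟩ := h.transitive hgQ (hsq g) (hne1 g) hgz hs hs3 hs1 hs2
  set g' := c * g with hg'
  have hg's : g' * z * g'⁻¹ = s := by rw [← hcs, hg']; group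
  have hz' : g'⁻¹ * z * g' ∈ Q := by
    have := LargeExtraspecial.mem_conj_of_conj_mem h.setting (by rw [h.card_Q]; norm_num) g'
      (by rw [hg's]; exact hs) (by rw [hg's]; exact hs2)
    exact (LargeExtraspecial.mem_conj_iff Q g' z).1 this
  have hz2 : g'⁻¹ * z * g' ≠ z := fun e => hs2 (by
    rw [← hg's]; calc g' * z * g'⁻¹ = g' * (g'⁻¹ * z * g') * g'⁻¹ := by rw [e]
      _ = z := by group)
  obtain ⟨k, hk, hks⟩ := h.transitive hs hs3 hs1 hs2 hz'
    (by simpa using hsq g'⁻¹) (by simpa using hne1 g'⁻¹) hz2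
  refine ⟨s, g' * k, h, hs, hspr, ?_, ?_⟩
  · calc g' * k * z * (g' * k)⁻¹ = g' * (k * z * k⁻¹) * g'⁻¹ := by group
      _ = s := by rw [hk, mul_inv_cancel_right, hg's]
  · calc g' * k * s * (g' * k)⁻¹ = g' * (k * s * k⁻¹) * g'⁻¹ := by group
      _ = z := by rw [hks]; group

theorem orth_singular : ∀ a : V, q a = 0 → B a e0 = 0 → ∀ b : V, q b = 0 → B b e0 = 0 → B a b = 0 →
    near a 0 ∨ near b 0 ∨ near a b := by decide +kernel

theorem exists_split_nonsingular : ∀ w : V, q w = 1 → B w e0 = 0 →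
    ∃ a : V, q a = 1 ∧ B a e0 = 0 ∧ q (a + w) = 1 := by decide +kernel

theorem exists_sum_singular : ∀ w : V, q w = 1 → B w e0 = 0 →
    ∃ a : V, q a = 0 ∧ B a e0 = 0 ∧ q (a + w) = 0 ∧ ¬ near a 0 ∧ ¬ near (a + w) 0 := by
  decide +kernel

theorem near_of_E_eq : ∀ v : V, (∀ x : V, E e0 v x = x) → B e0 v = 0 → near v 0 := by decide +kernel

theorem exists_sum_nonsingular : ∀ w : V, q w = 0 → B w e0 = 0 →
    ∃ a : V, q a = 1 ∧ B a e0 = 0 ∧ q (a + w) = 1 := by decide +kernel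

namespace Frame

variable {z s g : G} {Q : Subgroup G} {pr : G → V} {act : G → Iso} (F : Frame z s g Q pr act)
include F

theorem g_inv_z : g⁻¹ * z * g = s := by rw [← F.g_s]; group

theorem g_inv_s : g⁻¹ * s * g = z := by rw [← F.g_z]; group

theorem s_sq : s * s = 1 := (F.setup.pr_sq s F.s_mem).1 (by rw [F.s_pr, q_e0])

theorem s_z : s * z = z * s := F.setup.comm_Q F.s_mem

theorem s_ne : s ≠ 1 := fun e => e0_ne (by rw [← F.s_pr, e, F.setup.pr_one])

theorem s_ne_z : s ≠ z := fun e => e0_ne (by rw [← F.s_pr, e, F.setup.pr_z])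

theorem conj_s {c : G} (hc : c * z = z * c) (he : app (act c) e0 = e0) :
    c * s * c⁻¹ = s ∨ c * s * c⁻¹ = s * z :=
  F.setup.pr_congr (F.setup.conj_mem hc F.s_mem) F.s_mem
    (by rw [F.setup.act_pr c hc s F.s_mem, F.s_pr, he])

theorem conj_s_odd {c : G} (hc : c * z = z * c) (he : app (act c) e0 = e0) (ho : Odd (orderOf c)) :
    c * s = s * c := by
  rcases F.conj_s hc he with e | e
  · exact mul_inv_eq_iff_eq_mul.1 e
  · exact absurd (eq_one_of_odd_conj ho F.setup.z_sq hc e) F.setup.z_ne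

theorem exists_act_fix {f : Iso} (hf : f ∈ Omega (ZMod 2) Q6) (he : app f e0 = e0) :
    ∃ c, c * z = z * c ∧ act c = f ∧ c * s = s * c := by
  obtain ⟨c, hc, rfl⟩ := F.setup.exists_act hf
  rcases F.conj_s hc he with e | e
  · exact ⟨c, hc, rfl, mul_inv_eq_iff_eq_mul.1 e⟩
  · obtain ⟨y, hy, hy'⟩ := F.setup.conj_move F.s_mem (by rw [F.s_pr]; exact e0_ne)
    refine ⟨y * c, F.setup.comm_mul (F.setup.comm_Q hy) hc, ?_, mul_inv_eq_iff_eq_mul.1 ?_⟩
    · rw [F.setup.act_mul _ _ (F.setup.comm_Q hy) hc, F.setup.act_Q hy, one_mul]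
    · calc y * c * s * (y * c)⁻¹ = y * (c * s * c⁻¹) * y⁻¹ := by group
        _ = y * s * y⁻¹ * (y * z * y⁻¹) := by rw [e]; group
        _ = s := by
          rw [hy', F.setup.comm_Q hy, mul_inv_cancel_right, mul_assoc, F.setup.z_sq, mul_one]

/-- Membership in the extraspecial subgroup of `s`. -/
def InU (_ : Frame z s g Q pr act) (y : G) : Prop := g⁻¹ * y * g ∈ Q ∧ y * z = z * y

theorem inU_conj {x : G} (hx : x ∈ Q) (hxs : x * s = s * x) : F.InU (g * x * g⁻¹) := by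
  refine ⟨by rwa [show g⁻¹ * (g * x * g⁻¹) * g = x by group], ?_⟩
  calc g * x * g⁻¹ * z = g * (x * (g⁻¹ * z * g)) * g⁻¹ := by group
    _ = g * (s * x) * g⁻¹ := by rw [F.g_inv_z, hxs]
    _ = z * (g * x * g⁻¹) := by rw [← F.g_s]; group

theorem inU_back {y : G} (hy : F.InU y) : g⁻¹ * y * g * s = s * (g⁻¹ * y * g) := by
  rw [← F.g_inv_z, show g⁻¹ * y * g * (g⁻¹ * z * g) = g⁻¹ * (y * z) * g by group, hy.2]
  group

theorem inU_comm_s {y : G} (hy : F.InU y) : y * s = s * y := by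
  have := F.setup.comm_Q hy.1
  calc y * s = g * (g⁻¹ * y * g * (g⁻¹ * s * g)) * g⁻¹ := by group
    _ = g * (z * (g⁻¹ * y * g)) * g⁻¹ := by rw [F.g_inv_s, this]
    _ = s * y := by rw [← F.g_z]; group

theorem inU_mul {x y : G} (hx : F.InU x) (hy : F.InU y) : F.InU (x * y) := by
  refine ⟨?_, F.setup.comm_mul hx.2 hy.2⟩
  rw [show g⁻¹ * (x * y) * g = (g⁻¹ * x * g) * (g⁻¹ * y * g) by group]
  exact Q.mul_mem hx.1 hy.1

theorem inU_inv {x : G} (hx : F.InU x) : F.InU x⁻¹ := by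
  refine ⟨?_, F.setup.comm_inv hx.2⟩
  rw [show g⁻¹ * x⁻¹ * g = (g⁻¹ * x * g)⁻¹ by group]
  exact Q.inv_mem hx.1

theorem inU_normalized {c y : G} (hc : c * z = z * c) (hcs : c * s = s * c) (hy : F.InU y) :
    F.InU (c * y * c⁻¹) := by
  refine ⟨?_, F.setup.comm_conj hc hy.2⟩
  have hcz : g⁻¹ * c * g * z = z * (g⁻¹ * c * g) := by
    rw [← F.g_inv_s, show g⁻¹ * c * g * (g⁻¹ * s * g) = g⁻¹ * (c * s) * g by group, hcs]
    group
  have := F.setup.conj_mem hcz hy.1
  rwa [show g⁻¹ * c * g * (g⁻¹ * y * g) * (g⁻¹ * c * g)⁻¹ = g⁻¹ * (c * y * c⁻¹) * g by group] at this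

theorem sq_inU {y : G} (hy : F.InU y) : y * y = 1 ∨ y * y = s := by
  have key : y * y = g * ((g⁻¹ * y * g) * (g⁻¹ * y * g)) * g⁻¹ := by group
  rcases F.setup.sq_cases hy.1 with e | e <;> rw [e] at key
  · exact Or.inl (by rw [key]; group)
  · exact Or.inr (key.trans F.g_z)

theorem sq_inter {d : G} (hd : d ∈ Q) (hd' : F.InU d) : d * d = 1 := by
  rcases F.setup.sq_cases hd with e | e
  · exact e
  · rcases F.sq_inU hd' with e' | e'
    · exact e'
    · exact absurd (e'.symm.trans e) F.s_ne_z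

theorem comm_inter {d d' : G} (hd : d ∈ Q) (hd' : F.InU d) (he : d' ∈ Q) (he' : F.InU d') :
    d * d' = d' * d := by
  have h1 := F.sq_inter (Q.mul_mem hd he) (F.inU_mul hd' he')
  have h2 := F.sq_inter hd hd'
  have h3 := F.sq_inter he he'
  calc d * d' = d * (d * d' * (d * d')) * d' := by rw [h1, mul_one]
    _ = d * d * (d' * d) * (d' * d') := by group
    _ = d' * d := by rw [h2, h3, one_mul, mul_one]

theorem inter_pr {d : G} (hd : d ∈ Q) (hd' : F.InU d) : near (pr d) 0 := by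
  have hperp : B (pr d) e0 = 0 := by
    rw [← F.s_pr]; exact F.setup.B_of_commute hd F.s_mem (F.inU_comm_s hd')
  have hq : q (pr d) = 0 := (F.setup.pr_sq d hd).2 (F.sq_inter hd hd')
  by_contra hn
  obtain ⟨w', hq', hp', h1, h2, hB⟩ := exists_skew (pr d) hq hperp
    (fun e => hn (Or.inl (by rw [e, add_zero]))) (fun e => hn (Or.inr (by rw [e, add_zero])))
  have hn' : ¬ near w' 0 := by
    rintro (e | e) <;> rw [add_zero] at e
    · exact h1 e
    · exact h2 e
  obtain ⟨f, hf, hf0, hfn⟩ := exists_move_singular hq hperp hn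
  obtain ⟨f', hf', hf0', hfn'⟩ := exists_move_singular hq' hp' hn'
  obtain ⟨c, hc, hcf, hcs⟩ := F.exists_act_fix (mul_mem (inv_mem hf') hf)
    (by rw [app_mul, hf0]; conv_lhs => rw [← hf0', app_inv_app])
  have hpr : near (app (act c) (pr d)) w' := by
    have hb := near_trans hfn (near_symm hfn')
    rw [hcf, app_mul]
    rcases hb with e | e
    · left; rw [eq_of_vadd e, app_inv_app, vadd_self]
    · right
      have : app f'⁻¹ (app f (pr d)) + app f'⁻¹ (app f' w') = app f'⁻¹ e0 := by rw [← app_add, e]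
      rw [app_inv_app] at this
      rw [this]
      conv_lhs => rw [← hf0', app_inv_app]
  have hcomm := F.setup.B_of_commute hd (F.setup.conj_mem hc hd)
    (F.comm_inter hd hd' (F.setup.conj_mem hc hd) (F.inU_normalized hc hcs hd'))
  rw [F.setup.act_pr c hc d hd] at hcomm
  rcases hpr with e | e
  · rw [eq_of_vadd e, hB] at hcomm; exact one_ne_zero hcomm
  · have e' : app (act c) (pr d) = w' + e0 := by
      rw [← e, add_comm (app (act c) (pr d)) w', ← add_assoc, vadd_self, zero_add]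
    rw [e', B_add_right, hB, hperp, add_zero] at hcomm
    exact one_ne_zero hcomm

theorem inter_cases {d : G} (hd : d ∈ Q) (hd' : F.InU d) :
    d = 1 ∨ d = z ∨ d = s ∨ d = s * z := by
  rcases F.inter_pr hd hd' with e | e <;> rw [add_zero] at e
  · rcases (F.setup.pr_zero d hd).1 e with e | e <;> simp [e]
  · rcases F.setup.pr_congr hd F.s_mem (e.trans F.s_pr.symm) with e | e <;> simp [e]

theorem exists_act_inU {y : G} (hy : F.InU y) :
    ∃ w, B e0 w = 0 ∧ ∀ x, app (act y) x = E e0 w x := by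
  refine exists_E_of_trivial ?_ fun v hv => ?_
  · rw [← F.s_pr, ← F.setup.act_pr y hy.2 s F.s_mem,
      show y * s * y⁻¹ = s from mul_inv_eq_iff_eq_mul.2 (F.inU_comm_s hy)]
  · obtain ⟨x, hx, rfl⟩ := F.setup.pr_surj v
    have hxs : x * s = s * x := F.setup.commute_of hx F.s_mem (by rw [F.s_pr]; exact hv)
    have hd1 : y * x * y⁻¹ * x⁻¹ ∈ Q := Q.mul_mem (F.setup.conj_mem hy.2 hx) (Q.inv_mem hx)
    have hd2 : F.InU (y * x * y⁻¹ * x⁻¹) := by
      have h1 := F.inU_normalized (F.setup.comm_Q hx) hxs (F.inU_inv hy)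
      have h2 := F.inU_mul hy h1
      rwa [show y * (x * y⁻¹ * x⁻¹) = y * x * y⁻¹ * x⁻¹ by group] at h2
    have hn := F.inter_pr hd1 hd2
    rw [F.setup.pr_mul _ (F.setup.conj_mem hy.2 hx) _ (Q.inv_mem hx), F.setup.pr_inv hx,
      F.setup.act_pr y hy.2 x hx] at hn
    rcases hn with e | e <;> rw [add_zero] at e
    · exact Or.inl e
    · exact Or.inr e

/-- The vectors realised by the elements of the subgroup. -/
def Real (F : Frame z s g Q pr act) (w : V) : Prop :=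
  B w e0 = 0 ∧ ∃ y, F.InU y ∧ ∀ x, app (act y) x = E e0 w x

theorem real_add {w w' : V} (hw : F.Real w) (hw' : F.Real w') : F.Real (w + w') := by
  obtain ⟨h1, y, hy, ey⟩ := hw
  obtain ⟨h2, y', hy', ey'⟩ := hw'
  refine ⟨by rw [B_add_left, h1, h2, add_zero], y * y', F.inU_mul hy hy', fun x => ?_⟩
  rw [F.setup.act_mul _ _ hy.2 hy'.2, app_mul, ey', ey,
    E_comp q_e0 (by rw [B_comm]; exact h1) (by rw [B_comm]; exact h2)]

/-- The stabilizer carries a realised vector to every other vector of the same kind. -/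
theorem transport {w w' : V} (hw : B w e0 = 0) (hw' : B w' e0 = 0) (hq : q w = q w')
    (hn : q w = 0 → ¬ near w 0) (hn' : q w' = 0 → ¬ near w' 0) :
    ∃ c, c * z = z * c ∧ c * s = s * c ∧ app (act c) e0 = e0 ∧ near (app (act c) w) w' := by
  have hmv : ∀ {v : V}, B v e0 = 0 → (q v = 0 → ¬ near v 0) → ∃ f ∈ Omega (ZMod 2) Q6,
      app f e0 = e0 ∧ near (app f v) (if q v = 0 then e2 else e4) := by
    intro v hv hnv
    rcases zmod_cases (q v) with h | h
    · rw [if_pos h]; exact exists_move_singular h hv (hnv h)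
    · rw [if_neg (by rw [h]; exact one_ne_zero)]; exact exists_move_nonsingular h hv
  obtain ⟨f, hf, hf0, hfn⟩ := hmv hw hn
  obtain ⟨f', hf', hf0', hfn'⟩ := hmv hw' hn'
  have hinv : app f'⁻¹ e0 = e0 := by conv_lhs => rw [← hf0', app_inv_app]
  obtain ⟨c, hc, hcf, hcs⟩ := F.exists_act_fix (mul_mem (inv_mem hf') hf)
    (by rw [app_mul, hf0, hinv])
  refine ⟨c, hc, hcs, by rw [hcf, app_mul, hf0, hinv], ?_⟩
  rw [← hq] at hfn'
  have hb := near_trans hfn (near_symm hfn')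
  rw [hcf, app_mul]
  rcases hb with e | e
  · left; rw [eq_of_vadd e, app_inv_app, vadd_self]
  · right
    have : app f'⁻¹ (app f w) + app f'⁻¹ (app f' w') = app f'⁻¹ e0 := by rw [← app_add, e]
    rwa [app_inv_app, hinv] at this

theorem real_transport {w w' : V} (hw : F.Real w) (hw' : B w' e0 = 0) (hq : q w = q w')
    (hn : q w = 0 → ¬ near w 0) (hn' : q w' = 0 → ¬ near w' 0) : F.Real w' := by
  obtain ⟨h1, y, hy, ey⟩ := hw
  obtain ⟨c, hc, hcs, hc0, hcn⟩ := F.transport h1 hw' hq hn hn'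
  refine ⟨hw', c * y * c⁻¹, F.inU_normalized hc hcs hy, fun x => ?_⟩
  rw [F.setup.act_conj hc hy.2, app_mul, app_mul, ey, app_E, app_app_inv, hc0]
  exact E_congr hcn q_e0 (by rw [B_comm, ← hc0, app_B, h1]) x

theorem exists_outside : ∃ y, F.InU y ∧ y ∉ Q := by
  by_contra hno
  push Not at hno
  obtain ⟨a, ha, hpa⟩ := F.setup.pr_surj e2
  obtain ⟨b, hb, hpb⟩ := F.setup.pr_surj e3
  have hA := F.inU_conj ha (F.setup.commute_of ha F.s_mem (by rw [hpa, F.s_pr]; decide))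
  have hB := F.inU_conj hb (F.setup.commute_of hb F.s_mem (by rw [hpb, F.s_pr]; decide))
  have h := F.comm_inter (hno _ hA) hA (hno _ hB) hB
  have h' : a * b = b * a := by
    have := congrArg (fun x => g⁻¹ * x * g) h
    simpa [mul_assoc] using this
  have := F.setup.B_of_commute ha hb h'
  rw [hpa, hpb] at this
  exact absurd this (by decide)

theorem real_all {w : V} (hw : B w e0 = 0) : F.Real w := by
  obtain ⟨y, hy, hyQ⟩ := F.exists_outside
  obtain ⟨w0, hw0, ey⟩ := F.exists_act_inU hy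
  have hw0' : B w0 e0 = 0 := by rw [B_comm]; exact hw0
  have hR : F.Real w0 := ⟨hw0', y, hy, ey⟩
  have hn0 : ¬ near w0 0 := fun hn => hyQ ((F.setup.act_ker y hy.2).1 (iso_ext fun x => by
    rw [ey, app_one, E_congr hn q_e0 hw0, E_zero]))
  have hns : ∀ v, q v = 1 → ¬ near v 0 := by
    rintro v hv (e | e) <;> rw [add_zero] at e <;> rw [e] at hv <;>
      first | exact absurd hv (by decide) | exact absurd hv (by rw [q_zero]; decide)
  have hN : ∀ v, q v = 1 → B v e0 = 0 → F.Real v := by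
    rcases zmod_cases (q w0) with hq | hq
    · intro v hv hv0
      obtain ⟨a, ha, ha0, hb, hna, hnb⟩ := exists_sum_singular v hv hv0
      have h1 := F.real_transport hR ha0 (hq.trans ha.symm) (fun _ => hn0) (fun _ => hna)
      have h2 := F.real_transport hR (w' := a + v) (by rw [B_add_left, ha0, hv0, add_zero])
        (hq.trans hb.symm) (fun _ => hn0) (fun _ => hnb)
      have h3 := F.real_add h1 h2
      rwa [← add_assoc, vadd_self, zero_add] at h3
    · intro v hv hv0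
      exact F.real_transport hR hv0 (hq.trans hv.symm) (fun _ => hn0) (fun e => absurd e (by rw [hv]; exact one_ne_zero))
  rcases zmod_cases (q w) with hq | hq
  · obtain ⟨a, ha, ha0, hb⟩ := exists_sum_nonsingular w hq hw
    have h3 := F.real_add (hN a ha ha0) (hN (a + w) hb (by rw [B_add_left, ha0, hw, add_zero]))
    rwa [← add_assoc, vadd_self, zero_add] at h3
  · exact hN w hq hw

theorem conj_inter {d : G} (hd : d ∈ Q) (hd' : F.InU d) :
    g⁻¹ * d * g ∈ Q ∧ near (pr (g⁻¹ * d * g)) 0 := by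
  refine ⟨hd'.1, ?_⟩
  rcases F.inter_cases hd hd' with e | e | e | e <;> subst e
  · exact Or.inl (by rw [show g⁻¹ * (1 : G) * g = 1 by group, F.setup.pr_one, vadd_self])
  · exact Or.inr (by rw [F.g_inv_z, F.s_pr, add_zero])
  · exact Or.inl (by rw [F.g_inv_s, F.setup.pr_z, vadd_self])
  · refine Or.inr ?_
    rw [show g⁻¹ * (s * z) * g = (g⁻¹ * s * g) * (g⁻¹ * z * g) by group, F.g_inv_s, F.g_inv_z,
      F.setup.pr_mul _ F.setup.z_mem _ F.s_mem, F.setup.pr_z, F.s_pr, zero_add, add_zero]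

theorem singular_of_sq {y : G} (hy : F.InU y) {w : V} (hw : B e0 w = 0) (hn : ¬ near w 0)
    (ey : ∀ x, app (act y) x = E e0 w x) (hsq : y * y = 1) : q w = 0 := by
  have hw' : B w e0 = 0 := by rw [B_comm]; exact hw
  -- transporting the square to every vector of the same kind
  have horb : ∀ v, B v e0 = 0 → q w = q v → (q v = 0 → ¬ near v 0) →
      ∃ y', F.InU y' ∧ (∀ x, app (act y') x = E e0 v x) ∧ (y' * y' = 1 ↔ y * y = 1) := by
    intro v hv hqv hnv
    obtain ⟨c, hc, hcs, hc0, hcn⟩ := F.transport hw' hv hqv (fun _ => hn) hnv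
    refine ⟨c * y * c⁻¹, F.inU_normalized hc hcs hy, fun x => ?_, ?_⟩
    · rw [F.setup.act_conj hc hy.2, app_mul, app_mul, ey, app_E, app_app_inv, hc0]
      exact E_congr hcn q_e0 (by rw [B_comm, ← hc0, app_B, hw']) x
    · rw [show c * y * c⁻¹ * (c * y * c⁻¹) = c * (y * y) * c⁻¹ by group]
      exact conj_eq_one_iff
  have hsame : ∀ {y₁ y₂ : G} {v : V}, F.InU y₁ → F.InU y₂ → (∀ x, app (act y₁) x = E e0 v x) →
      (∀ x, app (act y₂) x = E e0 v x) → (y₁ * y₁ = 1 → y₂ * y₂ = 1) := by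
    intro y₁ y₂ v h1 h2 e1 e2 hsq
    have hd : y₁⁻¹ * y₂ ∈ Q := by
      refine (F.setup.act_ker _ (F.setup.comm_mul (F.setup.comm_inv h1.2) h2.2)).1 ?_
      rw [F.setup.act_mul _ _ (F.setup.comm_inv h1.2) h2.2, F.setup.act_inv h1.2,
        inv_mul_eq_one]
      exact iso_ext fun x => by rw [e1, e2]
    have hd' := F.inU_mul (F.inU_inv h1) h2
    have hx := F.conj_inter hd hd'
    have hc : y₁ * (y₁⁻¹ * y₂) = y₁⁻¹ * y₂ * y₁ := by
      have := F.setup.commute_of h1.1 hx.1 (by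
        rcases hx.2 with e | e <;> rw [add_zero] at e <;> rw [e]
        · exact B_zero_right _
        · rw [← F.s_pr]; exact F.setup.B_of_commute h1.1 F.s_mem (F.inU_back h1))
      have := congrArg (fun x => g * x * g⁻¹) this
      simpa [mul_assoc] using this
    calc y₂ * y₂ = (y₁ * (y₁⁻¹ * y₂)) * (y₁ * (y₁⁻¹ * y₂)) := by group
      _ = (y₁ * (y₁⁻¹ * y₂)) * ((y₁⁻¹ * y₂) * y₁) := by rw [hc]
      _ = y₁ * ((y₁⁻¹ * y₂) * (y₁⁻¹ * y₂)) * y₁ := by group
      _ = 1 := by rw [F.sq_inter hd hd', mul_one, hsq]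
  -- at the pull back
  have hback : ∀ {y₁ : G}, F.InU y₁ → y₁ * y₁ = 1 → q (pr (g⁻¹ * y₁ * g)) = 0 ∧
      B (pr (g⁻¹ * y₁ * g)) e0 = 0 := by
    intro y₁ h1 hsq
    refine ⟨(F.setup.pr_sq _ h1.1).2 ?_, ?_⟩
    · rw [show g⁻¹ * y₁ * g * (g⁻¹ * y₁ * g) = g⁻¹ * (y₁ * y₁) * g by group, hsq]; group
    · rw [← F.s_pr]; exact F.setup.B_of_commute h1.1 F.s_mem (F.inU_back h1)
  have hnot : ∀ {y₁ : G} {v : V}, F.InU y₁ → (∀ x, app (act y₁) x = E e0 v x) → B e0 v = 0 →
      ¬ near v 0 → ¬ near (pr (g⁻¹ * y₁ * g)) 0 := by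
    intro y₁ v h1 e1 hv hnv hc
    apply hnv
    have hQ1 : y₁ ∈ Q := by
      rcases hc with e | e <;> rw [add_zero] at e
      · rcases (F.setup.pr_zero _ h1.1).1 e with e' | e'
        · rw [show y₁ = g * (g⁻¹ * y₁ * g) * g⁻¹ by group, e']
          simp only [mul_one, mul_inv_cancel]; exact Q.one_mem
        · rw [show y₁ = g * (g⁻¹ * y₁ * g) * g⁻¹ by group, e', F.g_z]; exact F.s_mem
      · rcases F.setup.pr_congr h1.1 F.s_mem (e.trans F.s_pr.symm) with e' | e'
        · rw [show y₁ = g * (g⁻¹ * y₁ * g) * g⁻¹ by group, e', F.g_s]; exact F.setup.z_mem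
        · rw [show y₁ = g * (g⁻¹ * y₁ * g) * g⁻¹ by group, e',
            show g * (s * z) * g⁻¹ = (g * s * g⁻¹) * (g * z * g⁻¹) by group, F.g_s, F.g_z]
          exact Q.mul_mem F.setup.z_mem F.s_mem
    have hid : ∀ x, E e0 v x = x := fun x => by rw [← e1, F.setup.act_Q hQ1, app_one]
    exact near_of_E_eq v (hid) hv
  rcases zmod_cases (q w) with hq | hq
  · exact hq
  exfalso
  obtain ⟨a, ha, ha0, hb⟩ := exists_split_nonsingular w hq hw'
  have hb0 : B (a + w) e0 = 0 := by rw [B_add_left, ha0, hw', add_zero]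
  obtain ⟨ya, hya, eya, sqa⟩ := horb a ha0 (hq.trans ha.symm) (fun e => absurd e (by rw [ha]; exact one_ne_zero))
  obtain ⟨yb, hyb, eyb, sqb⟩ := horb (a + w) hb0 (hq.trans hb.symm) (fun e => absurd e (by rw [hb]; exact one_ne_zero))
  have eprod : ∀ x, app (act (ya * yb)) x = E e0 w x := fun x => by
    rw [F.setup.act_mul _ _ hya.2 hyb.2, app_mul, eyb, eya,
      E_comp q_e0 (by rw [B_comm]; exact ha0) (by rw [B_comm]; exact hb0), ← add_assoc, vadd_self,
      zero_add]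
  have h3 := hsame hy (F.inU_mul hya hyb) ey eprod hsq
  have hns : ∀ v, q v = 1 → ¬ near v 0 := by
    rintro v hv (e | e) <;> rw [add_zero] at e <;> rw [e] at hv
    · rw [q_zero] at hv; exact zero_ne_one hv
    · rw [q_e0] at hv; exact zero_ne_one hv
  obtain ⟨qa, pa⟩ := hback hya (sqa.2 hsq)
  obtain ⟨qb, pb⟩ := hback hyb (sqb.2 hsq)
  obtain ⟨qp, -⟩ := hback (F.inU_mul hya hyb) h3
  have emul : g⁻¹ * (ya * yb) * g = (g⁻¹ * ya * g) * (g⁻¹ * yb * g) := by group
  rw [emul, F.setup.pr_mul _ hya.1 _ hyb.1, q_add, qa, qb, zero_add, zero_add] at qp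
  rcases orth_singular _ qa pa _ qb pb qp with e | e | e
  · exact hnot hya eya (by rw [B_comm]; exact ha0) (hns a ha) e
  · exact hnot hyb eyb (by rw [B_comm]; exact hb0) (hns _ hb) e
  · refine hnot (F.inU_mul hya hyb) eprod hw hn ?_
    rw [emul, F.setup.pr_mul _ hya.1 _ hyb.1]
    rcases e with e | e
    · exact Or.inl (by rw [add_zero]; exact e)
    · exact Or.inr (by rw [add_zero]; exact e)

theorem sq_of_singular {y : G} (hy : F.InU y) {w : V} (hw : B e0 w = 0) (hn : ¬ near w 0)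
    (ey : ∀ x, app (act y) x = E e0 w x) (hq : q w = 0) : y * y = 1 := by
  have hw' : B w e0 = 0 := by rw [B_comm]; exact hw
  -- transporting the square to every vector of the same kind
  have horb : ∀ v, B v e0 = 0 → q w = q v → (q v = 0 → ¬ near v 0) →
      ∃ y', F.InU y' ∧ (∀ x, app (act y') x = E e0 v x) ∧ (y' * y' = 1 ↔ y * y = 1) := by
    intro v hv hqv hnv
    obtain ⟨c, hc, hcs, hc0, hcn⟩ := F.transport hw' hv hqv (fun _ => hn) hnv
    refine ⟨c * y * c⁻¹, F.inU_normalized hc hcs hy, fun x => ?_, ?_⟩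
    · rw [F.setup.act_conj hc hy.2, app_mul, app_mul, ey, app_E, app_app_inv, hc0]
      exact E_congr hcn q_e0 (by rw [B_comm, ← hc0, app_B, hw']) x
    · rw [show c * y * c⁻¹ * (c * y * c⁻¹) = c * (y * y) * c⁻¹ by group]
      exact conj_eq_one_iff
  have hsame : ∀ {y₁ y₂ : G} {v : V}, F.InU y₁ → F.InU y₂ → (∀ x, app (act y₁) x = E e0 v x) →
      (∀ x, app (act y₂) x = E e0 v x) → (y₁ * y₁ = 1 → y₂ * y₂ = 1) := by
    intro y₁ y₂ v h1 h2 e1 e2 hsq
    have hd : y₁⁻¹ * y₂ ∈ Q := by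
      refine (F.setup.act_ker _ (F.setup.comm_mul (F.setup.comm_inv h1.2) h2.2)).1 ?_
      rw [F.setup.act_mul _ _ (F.setup.comm_inv h1.2) h2.2, F.setup.act_inv h1.2,
        inv_mul_eq_one]
      exact iso_ext fun x => by rw [e1, e2]
    have hd' := F.inU_mul (F.inU_inv h1) h2
    have hx := F.conj_inter hd hd'
    have hc : y₁ * (y₁⁻¹ * y₂) = y₁⁻¹ * y₂ * y₁ := by
      have := F.setup.commute_of h1.1 hx.1 (by
        rcases hx.2 with e | e <;> rw [add_zero] at e <;> rw [e]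
        · exact B_zero_right _
        · rw [← F.s_pr]; exact F.setup.B_of_commute h1.1 F.s_mem (F.inU_back h1))
      have := congrArg (fun x => g * x * g⁻¹) this
      simpa [mul_assoc] using this
    calc y₂ * y₂ = (y₁ * (y₁⁻¹ * y₂)) * (y₁ * (y₁⁻¹ * y₂)) := by group
      _ = (y₁ * (y₁⁻¹ * y₂)) * ((y₁⁻¹ * y₂) * y₁) := by rw [hc]
      _ = y₁ * ((y₁⁻¹ * y₂) * (y₁⁻¹ * y₂)) * y₁ := by group
      _ = 1 := by rw [F.sq_inter hd hd', mul_one, hsq]
  obtain ⟨a, ha, hpa⟩ := F.setup.pr_surj e2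
  have hY := F.inU_conj ha (F.setup.commute_of ha F.s_mem (by rw [hpa, F.s_pr]; decide))
  have hY2 : g * a * g⁻¹ * (g * a * g⁻¹) = 1 := by
    rw [show g * a * g⁻¹ * (g * a * g⁻¹) = g * (a * a) * g⁻¹ by group,
      (F.setup.pr_sq a ha).1 (by rw [hpa, q_e2])]
    group
  obtain ⟨w1, hw1, eY⟩ := F.exists_act_inU hY
  have hYQ : g * a * g⁻¹ ∉ Q := by
    intro hQ
    have := (F.conj_inter hQ hY).2
    rw [show g⁻¹ * (g * a * g⁻¹) * g = a by group, hpa] at this
    exact absurd this (by decide)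
  have hn1 : ¬ near w1 0 := fun hn => hYQ ((F.setup.act_ker _ hY.2).1 (iso_ext fun x => by
    rw [eY, app_one, E_congr hn q_e0 hw1, E_zero]))
  have hw1' : B w1 e0 = 0 := by rw [B_comm]; exact hw1
  rcases zmod_cases (q w1) with h1 | h1
  · obtain ⟨y', hy', ey', hiff⟩ := horb w1 hw1' (hq.trans h1.symm) (fun _ => hn1)
    exact hiff.1 (hsame hY hy' eY ey' hY2)
  · exfalso
    exact absurd (F.singular_of_sq hY hw1 hn1 eY hY2) (by rw [h1]; exact one_ne_zero)

theorem sq_iff_singular {y : G} (hy : F.InU y) {w : V} (hw : B e0 w = 0) (hn : ¬ near w 0)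
    (ey : ∀ x, app (act y) x = E e0 w x) : y * y = 1 ↔ q w = 0 :=
  ⟨F.singular_of_sq hy hw hn ey, F.sq_of_singular hy hw hn ey⟩

end Frame

end CfsgLib.SuzType
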