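import Cfsg.Agent.Classical.Orth.Index
import Cfsg.Agent.Classical.Orth.Forms
import Cfsg.Agent.Eq.Def_Classical

/-!
The elliptic quadratic space of dimension six over the field with two elements: Eichler maps, the
commutator subgroup of its isometry group and finite computations in standard position.
-/

set_option autoImplicit false

namespace CfsgLib.SuzType

open Cfsg CfsgLib.OrthGeo CfsgLib.Classical.Orth
open scoped Matrix

/-- The index set of the coordinates. -/
abbrev I6 : Type := (Fin 2 ⊕ Fin 2) ⊕ Fin 2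

/-- The space. -/
abbrev V : Type := I6 → ZMod 2

/-- The elliptic form. -/
def q (v : V) : ZMod 2 :=
  v (.inl (.inl 0)) * v (.inl (.inr 0)) + v (.inl (.inl 1)) * v (.inl (.inr 1)) +
    (v (.inr 0) * v (.inr 0) + v (.inr 0) * v (.inr 1) + v (.inr 1) * v (.inr 1))

/-- Its polar form. -/
def B (u v : V) : ZMod 2 :=
  u (.inl (.inl 0)) * v (.inl (.inr 0)) + u (.inl (.inr 0)) * v (.inl (.inl 0)) +
    (u (.inl (.inl 1)) * v (.inl (.inr 1)) + u (.inl (.inr 1)) * v (.inl (.inl 1))) +
    (u (.inr 0) * v (.inr 1) + u (.inr 1) * v (.inr 0))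

/-- A vector from its coordinates. -/
def mk (a b c d e f : ZMod 2) : V := Sum.elim (Sum.elim ![a, c] ![b, d]) ![e, f]

/-- Basis vectors. -/
def e0 : V := mk 1 0 0 0 0 0
def e1 : V := mk 0 1 0 0 0 0
def e2 : V := mk 0 0 1 0 0 0
def e3 : V := mk 0 0 0 1 0 0
def e4 : V := mk 0 0 0 0 1 0
def e5 : V := mk 0 0 0 0 0 1

theorem zmod_cases : ∀ a : ZMod 2, a = 0 ∨ a = 1 := by decide
theorem zmod_add_self : ∀ a : ZMod 2, a + a = 0 := by decide
theorem zmod_eq_of_add : ∀ a b : ZMod 2, a + b = 0 → a = b := by decide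

theorem two_zero : (2 : ZMod 2) = 0 := rfl

theorem vadd_self (v : V) : v + v = 0 := funext fun _ => zmod_add_self _

theorem vadd_cancel (u v : V) : u + v + v = u := by rw [add_assoc, vadd_self, add_zero]

theorem eq_of_vadd {u v : V} (h : u + v = 0) : u = v :=
  funext fun i => zmod_eq_of_add _ _ (congrFun h i)

theorem vsub_eq (u v : V) : u - v = u + v := by
  rw [sub_eq_iff_eq_add, vadd_cancel]

theorem B_comm (u v : V) : B u v = B v u := by simp only [B]; ring

theorem B_add_left (u u' v : V) : B (u + u') v = B u v + B u' v := by simp only [B, Pi.add_apply]; ring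

theorem B_add_right (u v v' : V) : B u (v + v') = B u v + B u v' := by simp only [B, Pi.add_apply]; ring

theorem B_smul_left (c : ZMod 2) (u v : V) : B (c • u) v = c * B u v := by
  simp only [B, Pi.smul_apply, smul_eq_mul]; ring

theorem B_smul_right (c : ZMod 2) (u v : V) : B u (c • v) = c * B u v := by
  rw [B_comm, B_smul_left, B_comm]

theorem B_zero_left (v : V) : B 0 v = 0 := by simp [B]

theorem B_zero_right (v : V) : B v 0 = 0 := by simp [B]

theorem q_zero : q 0 = 0 := by simp [q]

theorem q_add (u v : V) : q (u + v) = q u + q v + B u v := by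
  simp only [q, B, Pi.add_apply]
  linear_combination (u (.inr 0) * v (.inr 0) + u (.inr 1) * v (.inr 1)) * two_zero

theorem B_self (v : V) : B v v = 0 := by
  simp only [B]
  linear_combination zmod_add_self (v (.inl (.inl 0)) * v (.inl (.inr 0))) +
    zmod_add_self (v (.inl (.inl 1)) * v (.inl (.inr 1))) + zmod_add_self (v (.inr 0) * v (.inr 1))

/-- The form of the statement. -/
abbrev Q6 : V → ZMod 2 := quadFormMinus 2 (ZMod 2) 1 1

theorem Q6_eq (v : V) : Q6 v = q v := by
  simp only [quadFormMinus, q, Fin.sum_univ_two]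
  generalize v (.inr 0) = a; generalize v (.inr 1) = b
  revert a b
  simp only [add_right_inj]
  decide

theorem hab : ∀ x y : ZMod 2, x ^ 2 + 1 * x * y + 1 * y ^ 2 = 0 → x = 0 ∧ y = 0 := by decide

theorem hnd : Geo.IsNondegenerateQuadraticForm Q6 := isNondegQF_quadFormMinus 2 1 1 hab

theorem bform_eq (u v : V) : bform hnd u v = B u v := by
  have h := OrthGeo.q_add hnd u v
  rw [Q6_eq, Q6_eq, Q6_eq, q_add] at h
  exact (add_left_cancel h).symm

theorem hexc : ¬ (Nat.card (ZMod 2) = 2 ∧ Fintype.card I6 = 4) := by simp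

/-- The isometry group. -/
abbrev Iso : Type := ↥(isometryGroup (ZMod 2) Q6)

/-- The action. -/
def app (g : Iso) (v : V) : V := ((g : GL I6 (ZMod 2)) : Matrix I6 I6 (ZMod 2)) *ᵥ v

theorem app_one (v : V) : app 1 v = v := by simp [app]

theorem app_mul (g h : Iso) (v : V) : app (g * h) v = app g (app h v) := by
  simp [app, Matrix.mulVec_mulVec]

theorem app_add (g : Iso) (u v : V) : app g (u + v) = app g u + app g v := Matrix.mulVec_add _ _ _

theorem app_zero (g : Iso) : app g 0 = 0 := Matrix.mulVec_zero _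

theorem app_smul (g : Iso) (c : ZMod 2) (v : V) : app g (c • v) = c • app g v :=
  Matrix.mulVec_smul _ _ _

theorem app_inv_app (g : Iso) (v : V) : app g⁻¹ (app g v) = v := by
  rw [← app_mul, inv_mul_cancel, app_one]

theorem app_app_inv (g : Iso) (v : V) : app g (app g⁻¹ v) = v := by
  rw [← app_mul, mul_inv_cancel, app_one]

theorem app_injective (g : Iso) : Function.Injective (app g) := fun u v h => by
  rw [← app_inv_app g u, h, app_inv_app]

theorem app_q (g : Iso) (v : V) : q (app g v) = q v := by
  rw [← Q6_eq, ← Q6_eq]; exact mem_isometryGroup.1 g.2 v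

theorem app_B (g : Iso) (u v : V) : B (app g u) (app g v) = B u v := by
  have h := q_add (app g u) (app g v)
  rw [← app_add, app_q, app_q, app_q, q_add] at h
  exact (add_left_cancel h).symm

theorem iso_ext {g h : Iso} (H : ∀ v, app g v = app h v) : g = h := Subtype.ext (gl_ext H)

/-- The Eichler map. -/
def E (s w x : V) : V := x + B x s • w + (B x w + q w * B x s) • s

theorem Q6_ne {a : V} (ha : q a = 1) : Q6 a ≠ 0 := by rw [Q6_eq, ha]; exact one_ne_zero

/-- The orthogonal transvection. -/
noncomputable def rf (a : V) (ha : q a = 1) : Iso :=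
  refl hnd (Q6_ne ha)

theorem app_rf (a : V) (ha : q a = 1) (x : V) : app (rf a ha) x = x + B x a • a := by
  show ((reflection hnd (Q6_ne ha) : GL I6 (ZMod 2)) : Matrix I6 I6 (ZMod 2)) *ᵥ x = _
  rw [reflection_mulVec, bform_eq, Q6_eq, ha, inv_one, one_mul, vsub_eq, B_comm]

theorem rf_not_mem (a : V) (ha : q a = 1) : rf a ha ∉ Omega (ZMod 2) Q6 := by
  intro h
  have h1 := (mem_omega_iff_even hnd two_zero hexc (rf a ha)).1 h
  rw [rf, coe_refl hnd] at h1
  exact (invariants_refl hnd (Q6_ne ha)).1 h1

theorem index_two : (Omega (ZMod 2) Q6).index = 2 :=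
  index_omega_even hnd two_zero (by simp) hexc

theorem rf_mul_rf (a b : V) (ha : q a = 1) (hb : q b = 1) :
    rf a ha * rf b hb ∈ Omega (ZMod 2) Q6 :=
  (Subgroup.mul_mem_iff_of_index_two index_two).2
    (iff_of_false (rf_not_mem a ha) (rf_not_mem b hb))

theorem exists_eichler {s w : V} (hs : q s = 0) (hw : B s w = 0) :
    ∃ f ∈ Omega (ZMod 2) Q6, ∀ x, app f x = E s w x := by
  have hs' : Q6 s = 0 := by rw [Q6_eq, hs]
  have hw' : bform hnd s w = 0 := by rw [bform_eq, hw]
  obtain ⟨f, hf, e⟩ := eichler_mem_omega hnd (by simp) hs' hw'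
  refine ⟨f, hf, fun x => ?_⟩
  show ((f : GL I6 (ZMod 2)) : Matrix I6 I6 (ZMod 2)) *ᵥ x = _
  rw [show (f : GL I6 (ZMod 2)) = _ from e, eichler_mulVec, bform_eq, bform_eq, Q6_eq, B_comm w x,
    B_comm s x, vsub_eq, vsub_eq]
  simp only [E, add_smul]
  abel

theorem app_E (f : Iso) (s w x : V) : app f (E s w x) = E (app f s) (app f w) (app f x) := by
  simp only [E, app_add, app_smul, app_B, app_q]

theorem E_congr {s w w' : V} (h : w + w' = 0 ∨ w + w' = s) (hs : q s = 0) (hw : B s w = 0) (x : V) :
    E s w x = E s w' x := by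
  rcases h with h | h
  · rw [eq_of_vadd h]
  · have e : w' = w + s := by rw [← h, add_comm, add_comm w w', vadd_cancel]
    subst e
    rw [E, E, q_add, B_add_right, hs, B_comm w s, hw, add_zero, add_zero, smul_add,
      show B x w + B x s + q w * B x s = (B x w + q w * B x s) + B x s by ring,
      add_smul (B x w + q w * B x s) (B x s) s]
    calc x + B x s • w + (B x w + q w * B x s) • s
        = x + B x s • w + (B x w + q w * B x s) • s + (B x s • s + B x s • s) := by
          rw [vadd_self, add_zero]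
      _ = _ := by abel

theorem E_comp {s w w' : V} (hs : q s = 0) (hw : B s w = 0) (hw' : B s w' = 0) (x : V) :
    E s w (E s w' x) = E s (w + w') x := by
  simp only [E, B_add_left, B_add_right, B_smul_left, B_self s, B_comm w' s, hw', hw, q_add,
    B_comm w w', mul_zero, add_zero]
  match_scalars <;> ring

theorem E_zero (s x : V) : E s 0 x = x := by simp [E, B_zero_right, q_zero]

end CfsgLib.SuzType
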