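import Cfsg.Agent.SuzType.Std

/-!
Orbits of the commutator subgroup of the isometry group on Eichler maps and the shape of its
involutions.
-/

set_option autoImplicit false
set_option synthInstance.maxSize 2000

namespace CfsgLib.SuzType

open Cfsg CfsgLib.OrthGeo CfsgLib.Classical.Orth Module

local notation "Om" => Omega (ZMod 2) Q6

theorem app_rf_fix (a : V) (ha : q a = 1) (x : V) (hx : B x a = 0) : app (rf a ha) x = x := by
  rw [app_rf, hx, zero_smul, add_zero]

theorem app_rf_swap (a b : V) (h : q (a + b) = 1) (hab : B a b = 1) :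
    app (rf (a + b) h) a = b := by
  rw [app_rf, B_add_right, B_self, zero_add, hab, one_smul, ← add_assoc, vadd_self, zero_add]

theorem q_add_of_eq {a b : V} (hq : q a = q b) (h : B a b = 1) : q (a + b) = 1 := by
  rw [q_add, hq, h, zmod_add_self, zero_add]

/-- Moving a singular vector to `e0`. -/
theorem exists_move_one {s : V} (hs : q s = 0) (h0 : s ≠ 0) : ∃ f ∈ Om, app f s = e0 := by
  by_cases he : s = e0
  · exact ⟨1, one_mem _, by rw [app_one, he]⟩
  by_cases hB : B s e0 = 1
  · have h := q_add_of_eq (hs.trans q_e0.symm) hB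
    refine ⟨rf e4 q_e4 * rf (s + e0) h, rf_mul_rf _ _ _ _, ?_⟩
    rw [app_mul, app_rf_swap _ _ h hB, app_rf_fix _ _ _ B_e0_e4]
  have hB' : B s e0 = 0 := (zmod_cases _).resolve_right hB
  obtain ⟨c, hc, hcs, hc0⟩ := exists_link_zero s hs hB' h0 he
  have h1 := q_add_of_eq (hs.trans hc.symm) (by rw [B_comm]; exact hcs : B s c = 1)
  have h2 := q_add_of_eq (hc.trans q_e0.symm) hc0
  refine ⟨rf (c + e0) h2 * rf (s + c) h1, rf_mul_rf _ _ _ _, ?_⟩
  rw [app_mul, app_rf_swap _ _ h1 (by rw [B_comm]; exact hcs), app_rf_swap _ _ h2 hc0]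

/-- Moving a vector to a target fixing `e0`. -/
theorem exists_move_two {w T : V} (hq : q w = q T) (hw : B w e0 = 0) (hT : B T e0 = 0)
    (hfix : B T e4 = 0)
    (hlink : B w T = 0 → ¬ near w T → ∃ c : V, q c = q T ∧ B c e0 = 0 ∧ B c w = 1 ∧ B c T = 1) :
    ∃ f ∈ Om, app f e0 = e0 ∧ near (app f w) T := by
  by_cases hn : near w T
  · exact ⟨1, one_mem _, app_one _, by rw [app_one]; exact hn⟩
  by_cases hB : B w T = 1
  · have h := q_add_of_eq hq hB
    refine ⟨rf e4 q_e4 * rf (w + T) h, rf_mul_rf _ _ _ _, ?_, ?_⟩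
    · rw [app_mul, app_rf_fix _ h e0 (by rw [B_add_right, B_comm, hw, B_comm, hT, add_zero]),
        app_rf_fix _ _ _ B_e0_e4]
    · rw [app_mul, app_rf_swap _ _ h hB, app_rf_fix _ _ _ hfix]
      exact near_self T
  obtain ⟨c, hcq, hc0, hcw, hcT⟩ := hlink ((zmod_cases _).resolve_right hB) hn
  have hwc : B w c = 1 := by rw [B_comm]; exact hcw
  have h1 := q_add_of_eq (hq.trans hcq.symm) hwc
  have h2 := q_add_of_eq hcq hcT
  refine ⟨rf (c + T) h2 * rf (w + c) h1, rf_mul_rf _ _ _ _, ?_, ?_⟩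
  · rw [app_mul, app_rf_fix _ h1 e0 (by rw [B_add_right, B_comm, hw, B_comm, hc0, add_zero]),
      app_rf_fix _ h2 e0 (by rw [B_add_right, B_comm, hc0, B_comm, hT, add_zero])]
  · rw [app_mul, app_rf_swap _ _ h1 hwc, app_rf_swap _ _ h2 hcT]
    exact near_self T

theorem exists_move_singular {w : V} (hq : q w = 0) (hw : B w e0 = 0) (hn : ¬ near w 0) :
    ∃ f ∈ Om, app f e0 = e0 ∧ near (app f w) e2 :=
  exists_move_two (by rw [hq, q_e2]) hw (by rw [B_comm, B_e0_e2]) (by decide) fun h hne => by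
    obtain ⟨c, h1, h2, h3, h4⟩ := exists_link_two w hq hw h hn hne
    exact ⟨c, by rw [h1, q_e2], h2, h3, h4⟩

theorem exists_move_nonsingular {w : V} (hq : q w = 1) (hw : B w e0 = 0) :
    ∃ f ∈ Om, app f e0 = e0 ∧ near (app f w) e4 :=
  exists_move_two (by rw [hq, q_e4]) hw (by rw [B_comm, B_e0_e4]) (B_self e4) fun h hne => by
    obtain ⟨c, h1, h2, h3, h4⟩ := exists_link_four w hq hw h hne
    exact ⟨c, by rw [h1, q_e4], h2, h3, h4⟩

/-- Every Eichler map is conjugate to one of two standard maps. -/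
theorem exists_standard {s w : V} (hs : q s = 0) (h0 : s ≠ 0) (hw : B s w = 0) (hw0 : w ≠ 0)
    (hws : w ≠ s) :
    ∃ f ∈ Om, (∀ x, app f (E s w x) = E e0 e2 (app f x)) ∨
      (∀ x, app f (E s w x) = E e0 e4 (app f x)) := by
  obtain ⟨g, hg, hgs⟩ := exists_move_one hs h0
  have hgw : B (app g w) e0 = 0 := by rw [← hgs, app_B, B_comm, hw]
  have hn : ¬ near (app g w) 0 := by
    rintro (h | h) <;> rw [add_zero] at h
    · exact hw0 (app_injective g (h.trans (app_zero g).symm))
    · exact hws (app_injective g (h.trans hgs.symm))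
  rcases zmod_cases (q w) with hq | hq
  · obtain ⟨f, hf, hf0, hfn⟩ := exists_move_singular (by rw [app_q, hq]) hgw hn
    refine ⟨f * g, mul_mem hf hg, Or.inl fun x => ?_⟩
    rw [app_E, app_mul f g s, hgs, hf0, app_mul f g w]
    exact E_congr hfn q_e0 (by rw [B_comm]; rw [← app_B f] at hgw; rwa [hf0] at hgw) _
  · obtain ⟨f, hf, hf0, hfn⟩ := exists_move_nonsingular (by rw [app_q, hq]) hgw
    refine ⟨f * g, mul_mem hf hg, Or.inr fun x => ?_⟩
    rw [app_E, app_mul f g s, hgs, hf0, app_mul f g w]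
    exact E_congr hfn q_e0 (by rw [B_comm]; rw [← app_B f] at hgw; rwa [hf0] at hgw) _

theorem app_sum (f : Iso) (a b : ZMod 2) (u v : V) :
    app f (a • u + b • v) = a • app f u + b • app f v := by rw [app_add, app_smul, app_smul]

theorem exists_separate : ∀ s : V, s ≠ 0 → ∀ w : V, w ≠ s →
    ∃ y : V, B s y = 1 ∧ B w y = 0 := by decide +kernel

theorem exists_dual (s w : V) (hs : s ≠ 0) (hw : w ≠ 0) (h : w ≠ s) :
    ∃ y₁ y₂ : V, B s y₁ = 1 ∧ B w y₁ = 0 ∧ B s y₂ = 0 ∧ B w y₂ = 1 := by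
  obtain ⟨y₁, a, b⟩ := exists_separate s hs w h
  obtain ⟨y₂, c, d⟩ := exists_separate w hw s h.symm
  exact ⟨y₁, y₂, a, b, d, c⟩

theorem invol_table : ∀ qw c₁ c₂ c₃ c₄ : ZMod 2,
    c₁ * 0 + c₂ * qw = c₁ → c₃ * 0 + c₄ * qw = c₄ → c₂ = c₃ → (c₁ = 0 → c₂ = 0 → False) →
    (c₃ = 0 → c₄ = 0 → False) → (c₁ = c₃ → c₂ = c₄ → False) →
    c₁ = qw ∧ c₂ = 1 ∧ c₃ = 1 ∧ c₄ = 0 := by decide

/-- An involution of the commutator subgroup is an Eichler map. -/
theorem exists_eq_E {f : Iso} (hf : f ∈ Om) (hsq : ∀ x, app f (app f x) = x)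
    (hne : ∃ x, app f x ≠ x) :
    ∃ s w : V, q s = 0 ∧ s ≠ 0 ∧ B s w = 0 ∧ w ≠ 0 ∧ w ≠ s ∧ ∀ x, app f x = E s w x := by
  classical
  set R := residual (f : GL I6 (ZMod 2)) with hR
  have hmemR : ∀ u, u ∈ R ↔ ∃ x, x + app f x = u := by
    intro u; rw [hR, Classical.Orth.mem_residual]; simp only [vsub_eq]; rfl
  have hfix : ∀ u ∈ R, app f u = u := by
    intro u hu
    obtain ⟨x, rfl⟩ := (hmemR u).1 hu
    rw [app_add, hsq, add_comm]
  have hperp : ∀ x : V, (∀ u ∈ R, B x u = 0) ↔ app f x = x := by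
    intro x
    have e := fixedSpace_eq_perp hnd f.2
    rw [← hR] at e
    rw [show (app f x = x) ↔ x ∈ fixedSpace (f : GL I6 (ZMod 2)) from
      (mem_fixedSpace (g := (f : GL I6 (ZMod 2)))).symm, e, mem_perp']
    simp only [bform_eq]
  have hle : R ≤ fixedSpace (f : GL I6 (ZMod 2)) := fun u hu => mem_fixedSpace.2 (hfix u hu)
  have hsum := finrank_residual_add (f : GL I6 (ZMod 2))
  rw [← hR, show Fintype.card I6 = 6 from rfl] at hsum
  have hdim : finrank (ZMod 2) R = 2 := by
    have h1 := Submodule.finrank_mono hle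
    obtain ⟨k, hk⟩ := (mem_omega_iff_even hnd two_zero hexc f).1 hf
    rw [← hR] at hk
    have h0 : finrank (ZMod 2) R ≠ 0 := by
      intro h0
      obtain ⟨x, hx⟩ := hne
      have hbot : R = ⊥ := Submodule.finrank_eq_zero.1 h0
      have hm : x + app f x ∈ R := (hmemR _).2 ⟨x, rfl⟩
      rw [hbot, Submodule.mem_bot] at hm
      exact hx (eq_of_vadd hm).symm
    omega
  have hcard : Nat.card R = 4 := by
    rw [Nat.card_eq_fintype_card, Module.card_eq_pow_finrank (K := ZMod 2), hdim]; rfl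
  have hiso : ∀ u ∈ R, ∀ v ∈ R, B u v = 0 := fun u hu v hv => (hperp u).2 (hfix u hu) v hv
  -- a singular vector
  obtain ⟨a, b, ha, hb, ha0, hb0, hab⟩ : ∃ a b, a ∈ R ∧ b ∈ R ∧ a ≠ 0 ∧ b ≠ 0 ∧ a ≠ b := by
    obtain ⟨a, ha, ha0⟩ := Submodule.exists_mem_ne_zero_of_ne_bot
      (p := R) (fun h => by rw [h, finrank_bot] at hdim; omega)
    have hnot : ¬ ((R : Set V) ⊆ {0, a}) := fun hh => by
      have := Set.ncard_le_ncard hh (Set.toFinite _)
      rw [← Nat.card_coe_set_eq] at this
      rw [Set.ncard_pair (Ne.symm ha0)] at this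
      change Nat.card R ≤ 2 at this
      omega
    obtain ⟨b, hb, hb'⟩ := Set.not_subset.1 hnot
    simp only [Set.mem_insert_iff, Set.mem_singleton_iff, not_or] at hb'
    exact ⟨a, b, ha, hb, ha0, hb'.1, fun e => hb'.2 e.symm⟩
  obtain ⟨s, w, hs, hw, hqs, hs0, hw0, hws⟩ :
      ∃ s w, s ∈ R ∧ w ∈ R ∧ q s = 0 ∧ s ≠ 0 ∧ w ≠ 0 ∧ w ≠ s := by
    rcases zmod_cases (q a) with h | h
    · exact ⟨a, b, ha, hb, h, ha0, hb0, hab.symm⟩
    rcases zmod_cases (q b) with h' | h'
    · exact ⟨b, a, hb, ha, h', hb0, ha0, hab⟩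
    refine ⟨a + b, a, R.add_mem ha hb, ha, ?_, fun e => hab (eq_of_vadd e), ha0, fun e => hb0 ?_⟩
    · rw [q_add, h, h', hiso a ha b hb]; decide
    · exact (add_left_cancel (a := a) ((add_zero a).trans e)).symm
  have hne' : s + w ≠ 0 := fun e => hws (eq_of_vadd e).symm
  have hset : ∀ u ∈ R, u = 0 ∨ u = s ∨ u = w ∨ u = s + w := by
    intro u hu
    by_contra hc
    push Not at hc
    have hsub : ({0, s, w, s + w, u} : Set V) ⊆ (R : Set V) := by
      simp [Set.insert_subset_iff, R.zero_mem, hs, hw, hu, R.add_mem hs hw]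
    have := Set.ncard_le_ncard hsub (Set.toFinite _)
    rw [← Nat.card_coe_set_eq (R : Set V)] at this
    simp only [SetLike.coe_sort_coe, hcard] at this
    rw [Set.ncard_insert_of_notMem, Set.ncard_insert_of_notMem, Set.ncard_insert_of_notMem,
      Set.ncard_pair hc.2.2.2.symm] at this
    · omega
    all_goals
      simp only [Set.mem_insert_iff, Set.mem_singleton_iff, not_or]
    · refine ⟨fun e => hs0 ?_, hc.2.2.1.symm⟩
      exact (add_right_cancel ((zero_add w).trans e)).symm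
    · exact ⟨hws.symm, fun e => hw0 (add_left_cancel ((add_zero s).trans e)).symm, hc.2.1.symm⟩
    · exact ⟨hs0.symm, hw0.symm, hne'.symm, hc.1.symm⟩
  have hcomb : ∀ u ∈ R, ∃ c d : ZMod 2, u = c • s + d • w := by
    intro u hu
    rcases hset u hu with rfl | rfl | rfl | rfl
    · exact ⟨0, 0, by simp⟩
    · exact ⟨1, 0, by simp⟩
    · exact ⟨0, 1, by simp⟩
    · exact ⟨1, 1, by simp⟩
  obtain ⟨y₁, y₂, h1s, h1w, h2s, h2w⟩ := exists_dual s w hs0 hw0 hws
  obtain ⟨c₁, c₂, hd1⟩ := hcomb _ ((hmemR _).2 ⟨y₁, rfl⟩)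
  obtain ⟨c₃, c₄, hd2⟩ := hcomb _ ((hmemR _).2 ⟨y₂, rfl⟩)
  have hsw : B s w = 0 := hiso s hs w hw
  have hq : ∀ y, B (y + app f y) y = q (y + app f y) := by
    intro y
    rw [q_add, app_q, zmod_add_self, zero_add, B_add_left, B_self, zero_add, B_comm]
  have hqc : ∀ c d : ZMod 2, q (c • s + d • w) = d * q w := by
    intro c d
    rw [q_add, B_smul_left, B_smul_right, hsw, mul_zero, mul_zero, add_zero]
    rcases zmod_cases c with rfl | rfl <;> rcases zmod_cases d with rfl | rfl <;> simp [q_zero, hqs]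
  have q1 : c₁ * 0 + c₂ * q w = c₁ := by
    have := hq y₁
    rw [hd1, hqc, B_add_left, B_smul_left, B_smul_left, h1s, h1w, mul_one, mul_zero, add_zero] at this
    rw [this]; ring
  have q2 : c₃ * 0 + c₄ * q w = c₄ := by
    have := hq y₂
    rw [hd2, hqc, B_add_left, B_smul_left, B_smul_left, h2s, h2w, mul_one, mul_zero, zero_add] at this
    rw [← this]; ring
  have q3 : c₂ = c₃ := by
    have e1 : B (app f y₁) y₂ = B y₁ (app f y₂) := by
      rw [← app_B f (app f y₁) y₂, hsq]
    have e2 : B (y₁ + app f y₁) y₂ = B y₁ (y₂ + app f y₂) := by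
      rw [B_add_left, B_add_right, e1]
    rw [hd1, hd2, B_add_left, B_add_right, B_smul_left, B_smul_left, B_smul_right, B_smul_right,
      h2s, h2w, B_comm y₁ s, B_comm y₁ w, h1s, h1w] at e2
    simpa using e2
  have hnz : ∀ y, (B s y ≠ 0 ∨ B w y ≠ 0) → y + app f y ≠ 0 := by
    intro y hy h0
    have h := (hperp y).2 (eq_of_vadd h0).symm
    rcases hy with hy | hy
    · exact hy (by rw [B_comm]; exact h s hs)
    · exact hy (by rw [B_comm]; exact h w hw)
  have q4 : c₁ = 0 → c₂ = 0 → False := fun u v => hnz y₁ (Or.inl (by rw [h1s]; exact one_ne_zero))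
    (by rw [hd1, u, v]; simp)
  have q5 : c₃ = 0 → c₄ = 0 → False := fun u v => hnz y₂ (Or.inr (by rw [h2w]; exact one_ne_zero))
    (by rw [hd2, u, v]; simp)
  have q6 : c₁ = c₃ → c₂ = c₄ → False := fun u v => hnz (y₁ + y₂)
    (Or.inl (by rw [B_add_right, h1s, h2s, add_zero]; exact one_ne_zero))
    (by rw [app_add, show y₁ + y₂ + (app f y₁ + app f y₂) = (y₁ + app f y₁) + (y₂ + app f y₂) by abel,
      hd1, hd2, u, v, vadd_self])
  obtain ⟨rfl, rfl, rfl, rfl⟩ := invol_table (q w) c₁ c₂ c₃ c₄ q1 q2 q3 q4 q5 q6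
  refine ⟨s, w, hqs, hs0, hsw, hw0, hws, fun x => ?_⟩
  have hk : app f (x + (B x s • y₁ + B x w • y₂)) = x + (B x s • y₁ + B x w • y₂) := by
    refine (hperp _).1 fun u hu => ?_
    obtain ⟨c, d, rfl⟩ := hcomb u hu
    simp only [B_add_left, B_add_right, B_smul_left, B_smul_right, B_comm y₁, B_comm y₂, h1s, h1w,
      h2s, h2w]
    linear_combination zmod_add_self (c * B x s) + zmod_add_self (d * B x w)
  have e1 : app f y₁ = y₁ + (q w • s + (1 : ZMod 2) • w) := by
    rw [← hd1, ← add_assoc, vadd_self, zero_add]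
  have e2 : app f y₂ = y₂ + ((1 : ZMod 2) • s + (0 : ZMod 2) • w) := by
    rw [← hd2, ← add_assoc, vadd_self, zero_add]
  rw [app_add, app_sum, e1, e2] at hk
  calc app f x = app f x + (B x s • (y₁ + (q w • s + (1 : ZMod 2) • w)) +
        B x w • (y₂ + ((1 : ZMod 2) • s + (0 : ZMod 2) • w))) +
        (B x s • (y₁ + (q w • s + (1 : ZMod 2) • w)) +
        B x w • (y₂ + ((1 : ZMod 2) • s + (0 : ZMod 2) • w))) := (vadd_cancel _ _).symm
    _ = E s w x := by
      rw [hk, E]
      simp only [smul_add, smul_smul, one_smul, mul_one, mul_zero, zero_smul, add_zero, add_smul,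
        mul_comm (q w)]
      calc x + (B x s • y₁ + B x w • y₂) + (B x s • y₁ + ((B x s * q w) • s + B x s • w) +
            (B x w • y₂ + B x w • s))
          = x + B x s • w + (B x w • s + (B x s * q w) • s) + (B x s • y₁ + B x s • y₁) +
            (B x w • y₂ + B x w • y₂) := by abel
        _ = _ := by rw [vadd_self, vadd_self, add_zero, add_zero]

theorem exists_partner_zero : ∃ y : V, B y e0 = 1 := ⟨e1, by decide⟩

/-- An isometry fixing `e0` and its perpendicular modulo `e0` is an Eichler map. -/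
theorem exists_E_of_trivial {f : Iso} (h0 : app f e0 = e0)
    (h : ∀ x, B x e0 = 0 → near (app f x) x) :
    ∃ w, B e0 w = 0 ∧ ∀ x, app f x = E e0 w x := by
  obtain ⟨y, hy⟩ := exists_partner_zero
  obtain ⟨d, hd⟩ : ∃ d, app f y = y + d := ⟨y + app f y, by rw [← add_assoc, vadd_self, zero_add]⟩
  have hd0 : B e0 d = 0 := by
    have := app_B f y e0
    rw [h0, hd, B_add_left, B_comm d e0] at this
    exact (add_eq_left).1 this
  have hqd : q d + B y d = 0 := by
    have := app_q f y
    rw [hd, q_add, add_assoc] at this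
    exact (add_eq_left).1 this
  refine ⟨d, hd0, ?_⟩
  have hEy : E e0 d y = app f y := by
    rw [E, hy, one_smul, mul_one, add_comm (B y d), hqd, zero_smul, add_zero, hd]
  have hperp : ∀ x, B x e0 = 0 → app f x = E e0 d x := by
    intro x hx
    obtain ⟨m, hm⟩ : ∃ m : ZMod 2, app f x = x + m • e0 := by
      rcases h x hx with e | e
      · exact ⟨0, by rw [zero_smul, add_zero, eq_of_vadd e]⟩
      · exact ⟨1, by rw [one_smul, ← e, add_comm (app f x) x, ← add_assoc, vadd_self, zero_add]⟩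
    have hB := app_B f x y
    rw [hm, hd, B_add_left, B_add_right, B_smul_left, B_add_right, hd0, add_zero,
      B_comm e0 y, hy, mul_one, add_assoc] at hB
    have hmd : B x d + m = 0 := (add_eq_left).1 hB
    rw [hm, E, hx, zero_smul, add_zero, mul_zero, add_zero, zmod_eq_of_add _ _ hmd]
  intro x
  rcases zmod_cases (B x e0) with hx | hx
  · exact hperp x hx
  · have hxy : B (x + y) e0 = 0 := by rw [B_add_left, hx, hy]; decide
    have e1 := hperp _ hxy
    rw [app_add, ← hEy] at e1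
    have e2 : E e0 d (x + y) = E e0 d x + E e0 d y := by
      simp only [E, B_add_left]
      match_scalars <;> ring
    rw [e2] at e1
    exact add_right_cancel e1

theorem app_pow_succ (f : Iso) (n : ℕ) (x : V) : app (f ^ (n + 1)) x = app f (app (f ^ n) x) := by
  rw [pow_succ', app_mul]

theorem fix_pow {f : Iso} {x : V} (h : app f x = x) (n : ℕ) : app (f ^ n) x = x := by
  induction n with
  | zero => rw [pow_zero, app_one]
  | succ n ih => rw [app_pow_succ, ih, h]

/-- An isometry of odd order fixing a singular pair and a non-singular vector perpendicular to it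
is trivial. -/
theorem eq_one_of_odd {f : Iso} {n : ℕ} (hn : Odd n) (hfn : f ^ n = 1) (h0 : app f e0 = e0)
    (h2 : near (app f e2) e2) {v : V} (hv : app f v = v) (hvW : inW e2 v) (hqv : q v = 1) :
    f = 1 := by
  have he2 : app f e2 = e2 := by
    rcases h2 with e | e
    · exact eq_of_vadd e
    exfalso
    have hfe : app f e2 = e2 + e0 := by
      rw [← e, add_comm (app f e2) e2, ← add_assoc, vadd_self, zero_add]
    have key : ∀ m : ℕ, app (f ^ m) e2 = e2 + (m : ZMod 2) • e0 := by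
      intro m
      induction m with
      | zero => simp [app_one]
      | succ m ih => rw [app_pow_succ, ih, app_add, app_smul, h0, hfe, Nat.cast_succ, add_smul,
          one_smul]; abel
    have := key n
    rw [hfn, app_one, (ZMod.natCast_eq_one_iff_odd).2 hn, one_smul] at this
    exact e0_ne (add_left_cancel ((add_zero e2).trans this)).symm
  have hW : ∀ x, inW e2 x → inW e2 (app f x) := by
    intro x hx
    refine ⟨?_, ?_⟩
    · rw [← h0, app_B]; exact hx.1
    · rw [← he2, app_B]; exact hx.2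
  set g := f * f with hg
  have hgx : ∀ x, app g x = app f (app f x) := fun x => app_mul f f x
  have hgU : ∀ u, (u = 0 ∨ u = e0 ∨ u = e2 ∨ u = e0 + e2) → app g u = u := by
    rintro u (rfl | rfl | rfl | rfl) <;>
      simp [hgx, app_zero, app_add, h0, he2]
  have hfU : ∀ u, (u = 0 ∨ u = e0 ∨ u = e2 ∨ u = e0 + e2) → app f u = u := by
    rintro u (rfl | rfl | rfl | rfl) <;> simp [app_zero, app_add, h0, he2]
  have hgW : ∀ x, inW e2 x → app g x + x = 0 ∨ app g x + x = e0 ∨ app g x + x = e2 ∨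
      app g x + x = e0 + e2 := by
    intro x hx
    rcases inW_two_split v hvW hqv x hx (app f x) (hW x hx) (app_q f x).symm
      (by rw [← hv, app_B, hv]) with h | h
    · have e : app f x = x + (x + app f x) := by rw [← add_assoc, vadd_self, zero_add]
      have : app g x + x = (x + app f x) + (x + app f x) := by
        rw [hgx]
        conv_lhs => rw [e, app_add, hfU _ h]
        abel
      exact Or.inl (this.trans (vadd_self _))
    · obtain ⟨u, hu⟩ : ∃ u, x + app f x + v = u := ⟨_, rfl⟩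
      rw [hu] at h
      have e : app f x = x + (u + v) := by
        rw [← hu, vadd_cancel, ← add_assoc, vadd_self, zero_add]
      have : app g x + x = (u + v) + (u + v) + (x + x) := by
        rw [hgx]
        conv_lhs => rw [e, app_add, app_add, hfU _ h, hv, e]
        abel
      exact Or.inl (by rw [this, vadd_self, vadd_self, add_zero])
  have hd : ∀ y, inW e2 (app g y + y) := by
    intro y
    refine ⟨?_, ?_⟩ <;> rw [B_add_left]
    · nth_rewrite 1 [← hgU e0 (Or.inr (Or.inl rfl))]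
      rw [app_B, zmod_add_self]
    · nth_rewrite 1 [← hgU e2 (Or.inr (Or.inr (Or.inl rfl)))]
      rw [app_B, zmod_add_self]
  have h4 : g * g * (g * g) = 1 := by
    refine iso_ext fun y => ?_
    rw [app_one]
    set d₁ := app g y + y with hd1
    set d₂ := app g d₁ + d₁ with hd2
    have h3 : app g d₂ = d₂ := hgU _ (hgW d₁ (hd y))
    have e1 : app g y = y + d₁ := by rw [hd1, add_comm (app g y) y, ← add_assoc, vadd_self, zero_add]
    have e2 : app g d₁ = d₁ + d₂ := by
      rw [hd2, add_comm (app g d₁) d₁, ← add_assoc, vadd_self, zero_add]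
    have t1 : app (g * g) y = y + d₂ := by
      rw [app_mul, e1, app_add, e1, e2]
      calc y + d₁ + (d₁ + d₂) = y + d₂ + (d₁ + d₁) := by abel
        _ = _ := by rw [vadd_self, add_zero]
    have t2 : app (g * g) d₂ = d₂ := by rw [app_mul, h3, h3]
    rw [app_mul, t1, app_add, t1, t2, vadd_cancel]
  have hdvd : orderOf f ∣ 8 := orderOf_dvd_of_pow_eq_one (by
    rw [← h4, hg]; simp only [pow_succ, pow_zero, one_mul, mul_assoc])
  have hodd : Odd (orderOf f) := hn.of_dvd_nat (orderOf_dvd_of_pow_eq_one hfn)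
  have : orderOf f ∣ 1 := by
    have hcop : Nat.Coprime (orderOf f) (2 ^ 3) := (Nat.coprime_two_right.2 hodd).pow_right 3
    exact hcop.dvd_of_dvd_mul_left (by simpa using hdvd)
  rwa [Nat.dvd_one, orderOf_eq_one_iff] at this

end CfsgLib.SuzType
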