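import Cfsg.Agent.SuzType.Cosets

/-!
Standard elements over the two standard maps and the shape of a non-singular standard involution.
-/

set_option autoImplicit false
set_option synthInstance.maxSize 2000
set_option linter.unusedSectionVars false

namespace CfsgLib.SuzType

open Cfsg

theorem E_inj {w w' : V} (hw : B w e0 = 0) (hw' : B w' e0 = 0)
    (h : ∀ x, E e0 w x = E e0 w' x) : near w w' := by
  have h2 : ∀ x, E e0 (w + w') x = x := fun x => by
    have e1 := E_comp q_e0 (show B e0 w = 0 by rw [B_comm]; exact hw)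
      (show B e0 w' = 0 by rw [B_comm]; exact hw') x
    rw [h, E_comp q_e0 (by rw [B_comm]; exact hw') (by rw [B_comm]; exact hw'), vadd_self, E_zero] at e1
    exact e1.symm
  rcases near_of_E_eq (w + w') h2 (by rw [B_add_right, B_comm, hw, B_comm, hw', add_zero]) with e | e
    <;> rw [add_zero] at e
  · exact Or.inl e
  · exact Or.inr e

theorem isPGroup_eq_one {G : Type*} [Group G] {c : G} (ho : Odd (orderOf c)) {k : ℕ}
    (h : c ^ 2 ^ k = 1) : c = 1 := by
  have h1 : orderOf c ∣ 1 := by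
    refine ((Nat.coprime_two_right.2 ho).pow_right k).dvd_of_dvd_mul_left ?_
    rw [mul_one]
    exact orderOf_dvd_of_pow_eq_one h
  exact orderOf_eq_one_iff.1 (Nat.dvd_one.1 h1)

theorem odd_orderOf_conj {G : Type*} [Group G] (g c : G) (h : Odd (orderOf c)) :
    Odd (orderOf (g⁻¹ * c * g)) := by
  have := orderOf_injective (MulAut.conj g⁻¹).toMonoidHom (MulEquiv.injective _) c
  rw [show (MulAut.conj g⁻¹).toMonoidHom c = g⁻¹ * c * g by simp] at this
  rwa [this]

/-- An involution of the centralizer over the non-singular standard map. -/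
structure IsT {G : Type*} [Group G] (z : G) (act : G → Iso) (t : G) : Prop where
  comm : t * z = z * t
  sq : t * t = 1
  map : ∀ v, app (act t) v = E e0 e4 v

variable {G : Type*} [Group G] [Finite G] {z s g : G} {Q : Subgroup G} {pr : G → V} {act : G → Iso}

namespace Setup

variable (h : Setup z Q pr act)
include h

theorem eq_one_of_mem_odd {c : G} (hc : c ∈ Q) (ho : Odd (orderOf c)) : c = 1 := by
  refine isPGroup_eq_one ho (k := 7) ?_
  have := congrArg Subtype.val (pow_card_eq_one' (x := (⟨c, hc⟩ : ↥Q)))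
  rwa [h.card_Q, Subgroup.coe_pow] at this

end Setup

namespace Frame

variable (F : Frame z s g Q pr act)
include F

theorem inU_conj_inv {x : G} (hx : x ∈ Q) (hxs : x * s = s * x) : F.InU (g⁻¹ * x * g) := by
  refine ⟨?_, ?_⟩
  · have hgg : (g * g)⁻¹ * z = z * (g * g)⁻¹ := by
      calc (g * g)⁻¹ * z = g⁻¹ * (g⁻¹ * z * g) * g⁻¹ := by group
        _ = g⁻¹ * s * g * (g⁻¹ * g⁻¹) := by rw [F.g_inv_z]; group
        _ = z * (g * g)⁻¹ := by rw [F.g_inv_s]; group
    have := F.setup.conj_mem hgg hx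
    rwa [show (g * g)⁻¹ * x * (g * g)⁻¹⁻¹ = g⁻¹ * (g⁻¹ * x * g) * g by simp [mul_inv_rev, mul_assoc]] at this
  · calc g⁻¹ * x * g * z = g⁻¹ * (x * (g * z * g⁻¹)) * g := by group
      _ = g⁻¹ * (s * x) * g := by rw [F.g_z, hxs]
      _ = z * (g⁻¹ * x * g) := by rw [← F.g_inv_s]; group

theorem conj_cent {c : G} (hc : c * s = s * c) : g⁻¹ * c * g * z = z * (g⁻¹ * c * g) := by
  calc g⁻¹ * c * g * z = g⁻¹ * (c * (g * z * g⁻¹)) * g := by group
    _ = g⁻¹ * (s * c) * g := by rw [F.g_z, hc]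
    _ = z * (g⁻¹ * c * g) := by rw [← F.g_inv_s]; group

theorem conj_fix_s {c : G} (hc : c * z = z * c) : g⁻¹ * c * g * s = s * (g⁻¹ * c * g) := by
  calc g⁻¹ * c * g * s = g⁻¹ * (c * (g * s * g⁻¹)) * g := by group
    _ = g⁻¹ * (z * c) * g := by rw [F.g_s, hc]
    _ = s * (g⁻¹ * c * g) := by rw [← F.g_inv_z]; group

theorem not_near_e2 : ¬ near e2 0 := by decide
theorem not_near_e4 : ¬ near e4 0 := by decide

theorem exists_e : ∃ y, F.InU y ∧ y * y = 1 ∧ ∀ x, app (act y) x = E e0 e2 x := by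
  obtain ⟨-, y, hy, ey⟩ := F.real_all (w := e2) (by rw [B_comm]; exact B_e0_e2)
  exact ⟨y, hy, F.sq_of_singular hy B_e0_e2 F.not_near_e2 ey q_e2, ey⟩

theorem exists_u : ∃ u, F.InU u ∧ u * u = s ∧ ∀ x, app (act u) x = E e0 e4 x := by
  obtain ⟨-, u, hu, eu⟩ := F.real_all (w := e4) (by rw [B_comm]; exact B_e0_e4)
  refine ⟨u, hu, (F.sq_inU hu).resolve_left fun e => ?_, eu⟩
  have := F.singular_of_sq hu B_e0_e4 F.not_near_e4 eu e
  rw [q_e4] at this
  exact one_ne_zero this

theorem isConj_of_inU {y : G} (hy : F.InU y) (hy2 : y * y = 1) (hyQ : y ∉ Q) : IsConj z y := by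
  set x := g⁻¹ * y * g with hx
  have hy' : y = g * x * g⁻¹ := by rw [hx]; group
  have hx2 : x * x = 1 := by
    rw [hx, show g⁻¹ * y * g * (g⁻¹ * y * g) = g⁻¹ * (y * y) * g by group, hy2]; group
  have h1 : x ≠ 1 := fun e => hyQ (by rw [hy', e]; simp)
  have h2 : x ≠ z := fun e => hyQ (by rw [hy', e, F.g_z]; exact F.s_mem)
  obtain ⟨c, -, e⟩ := F.setup.transitive F.s_mem F.s_sq F.s_ne F.s_ne_z hy.1 hx2 h1 h2
  rw [isConj_iff]
  refine ⟨g * c * g, ?_⟩
  rw [hy', show g * c * g * z * (g * c * g)⁻¹ = g * (c * (g * z * g⁻¹) * c⁻¹) * g⁻¹ by group, F.g_z, e]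

/-- An element of odd order fixing `e0` and the class of an element of the subgroup centralizes it. -/
theorem odd_commute_inU {c y : G} (hc : c * z = z * c) (hcs : c * s = s * c) (ho : Odd (orderOf c))
    (hy : F.InU y) (hm : act c * act y * (act c)⁻¹ = act y) : c * y = y * c := by
  have hd : y⁻¹ * (c * y * c⁻¹) ∈ Q := F.setup.mul_inv_mem hy.2 (F.setup.comm_conj hc hy.2)
    (by rw [F.setup.act_conj hc hy.2, hm])
  have hd' := F.inU_mul (F.inU_inv hy) (F.inU_normalized hc hcs hy)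
  have hcd : c * (y⁻¹ * (c * y * c⁻¹)) = y⁻¹ * (c * y * c⁻¹) * c := by
    rcases F.inter_cases hd hd' with e | e | e | e <;> rw [e]
    · rw [mul_one, one_mul]
    · exact hc
    · exact hcs
    · rw [← mul_assoc, hcs, mul_assoc, hc, mul_assoc]
  have := eq_one_of_odd_conj ho (F.sq_inter hd hd') hcd (a := y) (by group)
  exact mul_inv_eq_iff_eq_mul.1 (inv_mul_eq_one.1 this).symm

theorem exists_t : ∃ t, IsT z act t := by
  obtain ⟨u, hu, hu2, eu⟩ := F.exists_u
  obtain ⟨x, hx, hpx⟩ := F.setup.pr_surj e5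
  have hxs : x * s = s * x := F.setup.commute_of hx F.s_mem (by rw [hpx, F.s_pr]; decide)
  set w := u * x with hw
  have hwz : w * z = z * w := F.setup.comm_mul hu.2 (F.setup.comm_Q hx)
  have hwact : ∀ v, app (act w) v = E e0 e4 v := fun v => by
    rw [hw, F.setup.act_mul _ _ hu.2 (F.setup.comm_Q hx), F.setup.act_Q hx, mul_one, eu]
  -- the square of `w`
  set D := u⁻¹ * x * u * x⁻¹ with hD
  have hm := F.setup.conj_mem (F.setup.comm_inv hu.2) hx
  rw [inv_inv] at hm
  have hDQ : D ∈ Q := Q.mul_mem hm (Q.inv_mem hx)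
  have hDU : F.InU D := by
    have h2 := F.inU_mul (F.inU_inv hu) (F.inU_normalized (F.setup.comm_Q hx) hxs hu)
    rwa [show u⁻¹ * (x * u * x⁻¹) = u⁻¹ * x * u * x⁻¹ by group] at h2
  have hinv : ∀ v, app (act u⁻¹) v = E e0 e4 v := fun v => by
    apply app_injective (act u)
    rw [← app_mul, F.setup.act_inv hu.2, mul_inv_cancel, app_one, eu,
      E_comp q_e0 B_e0_e4 B_e0_e4, vadd_self, E_zero]
  have hprD : pr D = e0 := by
    have := F.setup.act_pr _ (F.setup.comm_inv hu.2) x hx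
    rw [inv_inv, hinv, hpx] at this
    rw [hD, F.setup.pr_mul _ hm _ (Q.inv_mem hx), F.setup.pr_inv hx, this, hpx]
    decide
  have hsq : w * w = s * D * (x * x) := by
    rw [hw, hD, ← hu2]; group
  have hwQ : w * w = 1 ∨ w * w = z := by
    rw [hsq]
    refine (F.setup.pr_zero _ (Q.mul_mem (Q.mul_mem F.s_mem hDQ) (Q.mul_mem hx hx))).1 ?_
    rw [F.setup.pr_mul _ (Q.mul_mem F.s_mem hDQ) _ (Q.mul_mem hx hx),
      F.setup.pr_mul _ F.s_mem _ hDQ, F.setup.pr_mul _ hx _ hx, F.s_pr, hprD, vadd_self, vadd_self,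
      add_zero]
  rcases hwQ with e | e
  · exact ⟨w, hwz, e, hwact⟩
  by_contra hno
  push Not at hno
  -- three lifts would commute
  have key : ∀ a ∈ Q, inW e4 (pr a) → w⁻¹ * a * w = a⁻¹ := by
    intro a ha hWa
    have hm := F.setup.conj_mem (F.setup.comm_inv hwz) ha
    rw [inv_inv] at hm
    have hpr : pr (w⁻¹ * a * w * a) = 0 := by
      have := F.setup.act_pr _ (F.setup.comm_inv hwz) a ha
      rw [inv_inv] at this
      rw [F.setup.pr_mul _ hm _ ha, this]
      have h2 : app (act w⁻¹) (pr a) = pr a := by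
        conv_lhs => rw [← (fixed_iff_four _).2 hWa, ← hwact, ← app_mul, F.setup.act_inv hwz,
          inv_mul_cancel, app_one]
      rw [h2, vadd_self]
    rcases (F.setup.pr_zero _ (Q.mul_mem hm ha)).1 hpr with e' | e'
    · exact eq_inv_of_mul_eq_one_left e'
    · exfalso
      refine hno (w * a) ⟨F.setup.comm_mul hwz (F.setup.comm_Q ha), ?_, fun v => ?_⟩
      · rw [show w * a * (w * a) = w * w * (w⁻¹ * a * w * a) by group, e, e', F.setup.z_sq]
      · rw [F.setup.act_mul _ _ hwz (F.setup.comm_Q ha), F.setup.act_Q ha, mul_one, hwact]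
  obtain ⟨a, ha, hpa⟩ := F.setup.pr_surj e2
  obtain ⟨b, hb, hpb⟩ := F.setup.pr_surj e3
  have h1 := key a ha (by rw [hpa]; decide)
  have h2 := key b hb (by rw [hpb]; decide)
  have h3 := key (a * b) (Q.mul_mem ha hb) (by rw [F.setup.pr_mul _ ha _ hb, hpa, hpb]; decide)
  have hcomm : a * b = b * a := by
    apply inv_injective
    rw [← h3, mul_inv_rev b a, ← h1, ← h2]; group
  have := F.setup.B_of_commute ha hb hcomm
  rw [hpa, hpb] at this
  exact absurd this (by decide)

/-- The partner of `t` in `Q` has a non-singular image. -/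
theorem partner {t u : G} (hT : IsT z act t) (hu : F.InU u) (hu2 : u * u = s)
    (eu : ∀ x, app (act u) x = E e0 e4 x) :
    u⁻¹ * t ∈ Q ∧ B (pr (u⁻¹ * t)) e0 = 0 ∧ B (pr (u⁻¹ * t)) e4 = 1 ∧ q (pr (u⁻¹ * t)) = 1 := by
  set x := u⁻¹ * t with hx
  have hxQ : x ∈ Q := F.setup.mul_inv_mem hu.2 hT.comm (iso_ext fun v => by rw [eu, hT.map])
  have hux : u * x * (u * x) = 1 := by rw [hx, mul_inv_cancel_left, hT.sq]
  have hm := F.setup.conj_mem hu.2 hxQ
  have hs1 : u * x * u⁻¹ * (s * x) = 1 := by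
    rw [← hu2]
    calc u * x * u⁻¹ * (u * u * x) = u * x * (u * x) := by group
      _ = 1 := hux
  have hrel : E e0 e4 (pr x) + pr x = e0 := by
    have := congrArg pr hs1
    rw [F.setup.pr_one, F.setup.pr_mul _ hm _ (Q.mul_mem F.s_mem hxQ),
      F.setup.pr_mul _ F.s_mem _ hxQ, F.s_pr, F.setup.act_pr u hu.2 x hxQ, eu] at this
    exact eq_of_vadd (by rw [← this]; abel)
  obtain ⟨hv0, hv4⟩ := partner_iff (pr x) ⟨by rw [hrel]; exact Or.inl (vadd_self _), fun hfix => by
    rw [hfix, vadd_self] at hrel; exact e0_ne hrel.symm⟩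
  refine ⟨hxQ, hv0, hv4, (zmod_cases _).resolve_left fun hq => ?_⟩
  obtain ⟨a, b, ha, hb, hab, ha0, ha4, hav, hb0, hb4, hbv⟩ := exists_pair (pr x) hq hv0 hv4
  set ρ := rf a ha * rf b hb with hρ
  have hfix : ∀ v, B v a = 0 → B v b = 0 → app ρ v = v := fun v h1 h2 => by
    rw [hρ, app_mul, app_rf_fix b hb v h2, app_rf_fix a ha v h1]
  have hρab : app ρ a = b := by
    rw [hρ, app_mul, app_rf, app_rf, hab, one_smul, B_add_left, B_self, B_comm b a, hab, zero_add,
      one_smul, add_comm a b, vadd_cancel]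
  have hcube : ρ ^ 3 = 1 := by
    refine iso_ext fun v => ?_
    rw [app_one, pow_succ, pow_succ, pow_one, app_mul, app_mul, hρ]
    simp only [app_mul, app_rf, B_add_left, B_smul_left, B_self, hab, B_comm b a]
    rcases zmod_cases (B v a) with e1 | e1 <;> rcases zmod_cases (B v b) with e2 | e2 <;>
      simp [e1, e2, add_comm, add_left_comm, vadd_self, vadd_cancel_left, zmod_add_self]
  obtain ⟨c, hc, hcρ, hco⟩ := F.setup.exists_odd_lift (f := ρ) (rf_mul_rf _ _ _ _) (n := 3) (by decide) hcube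
  have h0' : app (act c) e0 = e0 := by
    rw [hcρ]; exact hfix _ (by rw [B_comm]; exact ha0) (by rw [B_comm]; exact hb0)
  have h4' : app (act c) e4 = e4 := by
    rw [hcρ]; exact hfix _ (by rw [B_comm]; exact ha4) (by rw [B_comm]; exact hb4)
  have hv' : app (act c) (pr x) = pr x := by
    rw [hcρ]; exact hfix _ (by rw [B_comm]; exact hav) (by rw [B_comm]; exact hbv)
  have hcs := F.conj_s_odd hc h0' hco
  have hcu := F.odd_commute_inU hc hcs hco hu (iso_ext fun v => by
    rw [app_mul, app_mul, eu, app_E, app_app_inv, h0', h4', eu])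
  have hcx : c * x = x * c := by
    rcases F.setup.pr_congr (F.setup.conj_mem hc hxQ) hxQ (by rw [F.setup.act_pr c hc x hxQ, hv'])
      with e | e
    · exact mul_inv_eq_iff_eq_mul.1 e
    · exact absurd (eq_one_of_odd_conj hco F.setup.z_sq hc e) F.setup.z_ne
  have hxs : x * s = s * x := F.setup.commute_of hxQ F.s_mem (by rw [F.s_pr]; exact hv0)
  have hx2 : x * x = 1 := (F.setup.pr_sq x hxQ).1 hq
  set Y := g⁻¹ * x * g with hY
  set u' := g⁻¹ * u * g with hu'
  set c' := g⁻¹ * c * g with hc'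
  have hYU : F.InU Y := F.inU_conj_inv hxQ hxs
  have hu'Q : u' ∈ Q := hu.1
  have hc'z : c' * z = z * c' := F.conj_cent hcs
  have hc'o : Odd (orderOf c') := odd_orderOf_conj g c hco
  have hu'2 : q (pr u') = 1 := (zmod_cases _).resolve_left fun e => F.setup.z_ne (by
    have := (F.setup.pr_sq u' hu'Q).1 e
    rw [hu', show g⁻¹ * u * g * (g⁻¹ * u * g) = g⁻¹ * (u * u) * g by group, hu2, F.g_inv_s] at this
    exact this)
  have hu'0 : B (pr u') e0 = 0 := by
    rw [← F.s_pr]; exact F.setup.B_of_commute hu'Q F.s_mem (F.inU_back hu)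
  obtain ⟨w', hw', eY⟩ := F.exists_act_inU hYU
  have hw0 : B w' e0 = 0 := by rw [B_comm]; exact hw'
  have hYu : Y * u' * Y⁻¹ = u' * z := by
    have e : x * u * x⁻¹ = u * s := by
      have e1 : x⁻¹ = x := inv_eq_of_mul_eq_one_left hx2
      have e3 : x * u * x = u⁻¹ := by
        calc x * u * x = u⁻¹ * (u * x * (u * x)) := by group
          _ = u⁻¹ := by rw [hux, mul_one]
      rw [e1, e3]
      refine inv_eq_of_mul_eq_one_left ?_
      rw [← hu2, show u * (u * u) * u = (u * u) * (u * u) by group, hu2, F.s_sq]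
    calc Y * u' * Y⁻¹ = g⁻¹ * (x * u * x⁻¹) * g := by rw [hY, hu']; group
      _ = u' * (g⁻¹ * s * g) := by rw [e, hu']; group
      _ = u' * z := by rw [F.g_inv_s]
  have hfu : app (act Y) (pr u') = pr u' := by
    rw [← F.setup.act_pr Y hYU.2 u' hu'Q, hYu, F.setup.pr_mul _ hu'Q _ F.setup.z_mem, F.setup.pr_z,
      add_zero]
  have hBw : B (pr u') w' = 0 := by
    rw [eY, E, hu'0, zero_smul, add_zero, mul_zero, add_zero] at hfu
    rcases zmod_cases (B (pr u') w') with e | e
    · exact e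
    · rw [e, one_smul] at hfu
      exact absurd (add_eq_left.1 hfu) e0_ne
  have hnw : ¬ near w' 0 := fun hn => by
    have hYQ : Y ∈ Q := (F.setup.act_ker Y hYU.2).1 (iso_ext fun v => by
      rw [eY, app_one, E_congr hn q_e0 hw', E_zero])
    have hcase := F.inter_cases hYQ hYU
    have hx' : x = g * Y * g⁻¹ := by rw [hY]; group
    have hpx : near (pr x) 0 := by
      rcases hcase with e | e | e | e <;> rw [hx', e]
      · exact Or.inl (by rw [mul_one, mul_inv_cancel, F.setup.pr_one, vadd_self])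
      · exact Or.inr (by rw [F.g_z, F.s_pr, add_zero])
      · exact Or.inl (by rw [F.g_s, F.setup.pr_z, vadd_self])
      · refine Or.inr ?_
        rw [show g * (s * z) * g⁻¹ = (g * s * g⁻¹) * (g * z * g⁻¹) by group, F.g_s, F.g_z,
          F.setup.pr_mul _ F.setup.z_mem _ F.s_mem, F.setup.pr_z, F.s_pr, zero_add, add_zero]
    rcases hpx with e | e <;> rw [add_zero] at e <;> rw [e] at hv4
    · rw [B_zero_left] at hv4; exact zero_ne_one hv4
    · rw [B_e0_e4] at hv4; exact zero_ne_one hv4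
  have hY2 : Y * Y = 1 := by
    rw [hY, show g⁻¹ * x * g * (g⁻¹ * x * g) = g⁻¹ * (x * x) * g by group, hx2]; group
  have hqw := F.singular_of_sq hYU hw' hnw eY hY2
  have hc's : c' * s = s * c' := F.conj_fix_s hc
  have hc0 : app (act c') e0 = e0 := by
    rw [← F.s_pr, ← F.setup.act_pr c' hc'z s F.s_mem,
      show c' * s * c'⁻¹ = s from mul_inv_eq_iff_eq_mul.2 hc's]
  have hcY : c' * Y * c'⁻¹ = Y := by
    rw [hc', hY, show g⁻¹ * c * g * (g⁻¹ * x * g) * (g⁻¹ * c * g)⁻¹ = g⁻¹ * (c * x * c⁻¹) * g by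
      group, show c * x * c⁻¹ = x from mul_inv_eq_iff_eq_mul.2 hcx]
  have hcu' : app (act c') (pr u') = pr u' := by
    rw [← F.setup.act_pr c' hc'z u' hu'Q, show c' * u' * c'⁻¹ = u' by
      rw [hc', hu', show g⁻¹ * c * g * (g⁻¹ * u * g) * (g⁻¹ * c * g)⁻¹ = g⁻¹ * (c * u * c⁻¹) * g by
        group, show c * u * c⁻¹ = u from mul_inv_eq_iff_eq_mul.2 hcu]]
  have hcw : near (app (act c') w') w' := by
    refine E_inj (by rw [← hc0, app_B, hw0]) hw0 fun v => ?_
    have hm : act Y = act c' * act Y * (act c')⁻¹ := by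
      rw [← F.setup.act_conj hc'z hYU.2, hcY]
    have := congrArg (fun f => app f v) hm
    simp only [app_mul, eY, app_E, app_app_inv, hc0] at this
    exact this.symm
  obtain ⟨f0, -, hf0, hf0n⟩ := exists_move_singular hqw hw0 hnw
  set f' := f0 * act c' * f0⁻¹ with hf'
  have hf0i : app f0⁻¹ e0 = e0 := by conv_lhs => rw [← hf0, app_inv_app]
  have hpow : f' ^ orderOf c' = 1 := by
    rw [hf', conj_pow, ← F.setup.act_pow hc'z, pow_orderOf_eq_one, F.setup.act_one, mul_one,
      mul_inv_cancel]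
  have hnear : ∀ (k : Iso), app k e0 = e0 → ∀ {p r : V}, near p r → near (app k p) (app k r) := by
    intro k hk p r h
    rcases h with e | e
    · exact Or.inl (by rw [← app_add, e, app_zero])
    · exact Or.inr (by rw [← app_add, e, hk])
  have hf1 := eq_one_of_odd hc'o hpow (by rw [hf', app_mul, app_mul, hf0i, hc0, hf0])
    (by
      rw [hf', app_mul, app_mul]
      have a1 : near (app f0⁻¹ e2) w' := by
        have := hnear _ hf0i hf0n
        rw [app_inv_app] at this
        exact near_symm this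
      exact near_trans (hnear f0 hf0 (near_trans (hnear _ hc0 a1) hcw)) hf0n)
    (v := app f0 (pr u'))
    (by rw [hf', app_mul, app_mul, app_inv_app, hcu'])
    (by
      have h1 : B (app f0 (pr u')) e0 = 0 := by rw [← hf0, app_B, hu'0]
      refine ⟨h1, ?_⟩
      have h2 : B (app f0 (pr u')) (app f0 w') = 0 := by rw [app_B, hBw]
      rcases hf0n with e | e
      · rwa [eq_of_vadd e] at h2
      · have e' : app f0 w' = e2 + e0 := by
          rw [← e, add_comm (app f0 w') e2, ← add_assoc, vadd_self, zero_add]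
        rwa [e', B_add_right, h1, add_zero] at h2)
    (by rw [app_q, hu'2])
  have hac : act c' = 1 := by
    have e := hf'.symm.trans hf1
    calc act c' = f0⁻¹ * (f0 * act c' * f0⁻¹) * f0 := by group
      _ = 1 := by rw [e]; group
  have hc1 : c' = 1 := F.setup.eq_one_of_mem_odd ((F.setup.act_ker c' hc'z).1 hac) hc'o
  have hcone : c = 1 := by
    rw [show c = g * c' * g⁻¹ by rw [hc']; group, hc1]; group
  rw [hcone, F.setup.act_one] at hcρ
  rw [← hcρ, app_one] at hρab
  rw [hρab, B_self] at hab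
  exact zero_ne_one hab

end Frame

end CfsgLib.SuzType
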