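import Cfsg.Agent.ExtraspecialTwo.Aut
import Cfsg.Agent.LargeExtraspecial.Simple
import Cfsg.Agent.Classical.Orth.OrderStd
import Cfsg.Agent.SuzType.Orbit

/-!
An involution whose centralizer is an extension of an extraspecial group of order `2^7` by the
commutator subgroup of the elliptic orthogonal group in dimension six: the action on the quadratic
space.
-/

set_option autoImplicit false

namespace CfsgLib.SuzType

open Cfsg CfsgLib.ExtraspecialTwo CfsgLib.F2Forms
open scoped Matrix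

variable {G : Type*} [Group G] [Finite G]

/-- The coordinates of `Q` modulo `⟨z⟩` and the action of the centralizer of `z`. -/
structure Setup (z : G) (Q : Subgroup G) (pr : G → V) (act : G → Iso) : Prop where
  setting : LargeExtraspecial.Setting Q z
  card_Q : Nat.card Q = 128
  pr_mul : ∀ a ∈ Q, ∀ b ∈ Q, pr (a * b) = pr a + pr b
  pr_zero : ∀ a ∈ Q, (pr a = 0 ↔ a = 1 ∨ a = z)
  pr_surj : ∀ v, ∃ a ∈ Q, pr a = v
  pr_sq : ∀ a ∈ Q, (q (pr a) = 0 ↔ a * a = 1)
  act_mul : ∀ a b, a * z = z * a → b * z = z * b → act (a * b) = act a * act b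
  act_pr : ∀ c, c * z = z * c → ∀ a ∈ Q, pr (c * a * c⁻¹) = app (act c) (pr a)
  act_ker : ∀ c, c * z = z * c → (act c = 1 ↔ c ∈ Q)
  act_range : ∀ f, f ∈ Omega (ZMod 2) Q6 ↔ ∃ c, c * z = z * c ∧ act c = f

theorem mem_cent_iff {z x : G} : x ∈ Subgroup.centralizer ({z} : Set G) ↔ x * z = z * x :=
  Subgroup.mem_centralizer_singleton_iff

theorem pow_seven_cancel {n : ℕ} (h : 2 ^ (2 * n + 1) = 2 ^ 7) : n = 3 := by
  have := Nat.pow_right_injective (le_refl 2) h
  omega

/-- Conjugation acts by isometries with kernel `Q`. -/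
theorem exists_action {z : G} {Q : Subgroup G} (hS : LargeExtraspecial.Setting Q z)
    {π : ↥Q →* Multiplicative (Sp 3)} {w : Sp 3} (hπ : IsCoord π (form 3 w))
    {κ : Type} [Fintype κ] [DecidableEq κ] (Q' : (κ → ZMod 2) → ZMod 2)
    (g : Sp 3 ≃ₗ[ZMod 2] (κ → ZMod 2)) (hg : ∀ v, form 3 w v = Q' (g v)) :
    ∃ φ : ↥(Subgroup.centralizer ({z} : Set G)) →* ↥(isometryGroup (ZMod 2) Q'),
      φ.ker = Q.subgroupOf (Subgroup.centralizer ({z} : Set G)) ∧
      ∀ (c : ↥(Subgroup.centralizer ({z} : Set G))) (a : ↥Q) (b : ↥Q),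
        (b : G) = c * a * (c : G)⁻¹ →
          ((φ c : Matrix.GeneralLinearGroup κ (ZMod 2)) : Matrix κ κ (ZMod 2)) *ᵥ g (π a).toAdd =
            g (π b).toAdd := by
  classical
  set C := Subgroup.centralizer ({z} : Set G) with hC
  have hle : Q ≤ C := fun x hx => mem_cent_iff.2 (hS.comm hx)
  haveI hn : (Q.subgroupOf C).Normal := ⟨fun x hx c => by
    rw [Subgroup.mem_subgroupOf] at hx ⊢
    exact (hS.normalized _ (mem_cent_iff.1 c.2) _).1 hx⟩
  let ι : ↥(Q.subgroupOf C) ≃* ↥Q := Subgroup.subgroupOfEquivOfLe hle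
  let cj : ↥C →* MulAut ↥Q := (MulAut.congr ι).toMonoidHom.comp MulAut.conjNormal
  have hcj : ∀ (c : ↥C) (a : ↥Q), (cj c a : G) = c * a * (c : G)⁻¹ := fun c a => rfl
  let tr : ↥(isometryGroup (ZMod 2) (form 3 w)) →* ↥(isometryGroup (ZMod 2) Q') :=
    MonoidHom.mk' (fun A => ⟨glOfEquiv (g.symm.trans ((equivOfGl A.1).trans g)),
      ExtraspecialTwo.mem_isometryGroup.2 fun v => by
        rw [glOfEquiv_mulVec]
        simp only [LinearEquiv.trans_apply, equivOfGl_apply, ← hg,
          ExtraspecialTwo.mem_isometryGroup.1 A.2]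
        rw [hg, g.apply_symm_apply]⟩)
      fun A B => Subtype.ext (ExtraspecialTwo.gl_ext fun v => by
        simp [glOfEquiv_mulVec, equivOfGl_apply, ← Matrix.mulVec_mulVec])
  have htr : ∀ (A : ↥(isometryGroup (ZMod 2) (form 3 w))) (v : Sp 3),
      ((tr A : Matrix.GeneralLinearGroup κ (ZMod 2)) : Matrix κ κ (ZMod 2)) *ᵥ g v =
        g (((A : Matrix.GeneralLinearGroup (Fin 3 ⊕ Fin 3) (ZMod 2)) :
          Matrix (Fin 3 ⊕ Fin 3) (Fin 3 ⊕ Fin 3) (ZMod 2)) *ᵥ v) := fun A v => by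
    rw [show tr A = (⟨glOfEquiv (g.symm.trans ((equivOfGl A.1).trans g)), _⟩ :
      ↥(isometryGroup (ZMod 2) Q')) from rfl, glOfEquiv_mulVec]
    simp [equivOfGl_apply]
  have hinj : Function.Injective tr := fun A B h => Subtype.ext (ExtraspecialTwo.gl_ext fun v =>
    g.injective (by rw [← htr, ← htr, h]))
  refine ⟨(tr.comp hπ.autHom).comp cj, ?_, ?_⟩
  · ext c
    rw [MonoidHom.mem_ker, MonoidHom.comp_apply, MonoidHom.comp_apply, map_eq_one_iff _ hinj,
      ← MonoidHom.mem_ker, hπ.autHom_ker hS.extraspecial, Subgroup.mem_subgroupOf]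
    constructor
    · rintro ⟨a, ha⟩
      have key : ∀ x ∈ Q, (a : G)⁻¹ * c * x = x * ((a : G)⁻¹ * c) := by
        intro x hx
        have := congrArg Subtype.val (DFunLike.congr_fun ha ⟨x, hx⟩)
        rw [hcj] at this
        simp only [MulAut.conj_apply, Subgroup.coe_mul, InvMemClass.coe_inv] at this
        calc (a : G)⁻¹ * c * x = (a : G)⁻¹ * (c * x * (c : G)⁻¹) * c := by group
          _ = x * ((a : G)⁻¹ * c) := by rw [← this]; group
      have hmem : (a : G)⁻¹ * c ∈ Subgroup.centralizer (Q : Set G) :=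
        Subgroup.mem_centralizer_iff.2 fun x hx => (key x hx).symm
      rw [hS.centralizer_eq] at hmem
      have := Q.mul_mem a.2 (LargeExtraspecial.zOf_le Q hmem)
      rwa [mul_inv_cancel_left] at this
    · intro hc
      exact ⟨⟨c, hc⟩, MulEquiv.ext fun x => Subtype.ext (hcj c x).symm⟩
  · intro c a b hb
    obtain rfl : b = cj c a := Subtype.ext (hb.trans (hcj c a).symm)
    rw [MonoidHom.comp_apply, MonoidHom.comp_apply, htr, hπ.autHom_apply, hπ.induced_apply]

theorem card_iso_minus : Nat.card Iso = 51840 := by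
  rw [Classical.Orth.card_isometryGroup_minus 1 1 hab]
  rfl

theorem card_omega : Nat.card ↥(Omega (ZMod 2) Q6) = 25920 := by
  have h := (Omega (ZMod 2) Q6).card_mul_index
  rw [index_two, card_iso_minus] at h
  omega

/-- A setup for the hypotheses as stated. -/
theorem exists_setup {z : G} (hz : orderOf z = 2)
    (Q : Subgroup (Subgroup.centralizer ({z} : Set G))) [Q.Normal]
    (hF : Cfsg.generalizedFittingSubgroup (Subgroup.centralizer ({z} : Set G)) = Q)
    (hQ : Cfsg.IsExtraspecial 2 Q) (hcard : Nat.card Q = 2 ^ 7)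
    (e : (Subgroup.centralizer ({z} : Set G)) ⧸ Q ≃* Omega (ZMod 2) Q6) :
    ∃ pr act, Setup z (Q.map (Subgroup.centralizer ({z} : Set G)).subtype) pr act := by
  classical
  have hS : LargeExtraspecial.Setting (Q.map (Subgroup.centralizer ({z} : Set G)).subtype) z := by
    refine LargeExtraspecial.setting_of_generalizedFitting hz (Subgroup.map_subtype_le _)
      (by rw [hF]) ?_
    exact LargeExtraspecial.isExtraspecial_of_mulEquiv
      (Q.equivMapOfInjective _ (Subgroup.subtype_injective _)) hQ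
  set P := Q.map (Subgroup.centralizer ({z} : Set G)).subtype with hP
  have hcP : Nat.card P = 128 := by
    rw [hP, Subgroup.card_map_of_injective (Subgroup.centralizer ({z} : Set G)).subtype_injective, hcard]; rfl
  obtain ⟨n, w, π, hπ, -, hn⟩ := exists_coord hS.extraspecial
  rw [hcP] at hn
  obtain rfl : n = 3 := pow_seven_cancel hn.symm
  have hPQ : P.subgroupOf (Subgroup.centralizer ({z} : Set G)) = Q :=
    Subgroup.comap_map_eq_self_of_injective (Subgroup.centralizer ({z} : Set G)).subtype_injective Q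
  have hrange : ∀ {κ : Type} [Fintype κ] [DecidableEq κ] (Q' : (κ → ZMod 2) → ZMod 2)
      (φ : ↥(Subgroup.centralizer ({z} : Set G)) →* ↥(isometryGroup (ZMod 2) Q')), φ.ker = P.subgroupOf (Subgroup.centralizer ({z} : Set G)) →
      Nat.card φ.range = 25920 := by
    intro κ _ _ Q' φ hφ
    rw [← Nat.card_congr (QuotientGroup.quotientKerEquivRange φ).toEquiv,
      Nat.card_congr (QuotientGroup.quotientMulEquivOfEq (hφ.trans hPQ)).toEquiv,
      Nat.card_congr e.toEquiv, card_omega]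
  have hw : quadFormPlus 3 (ZMod 2) w = 1 := by
    rcases zmod_cases (quadFormPlus 3 (ZMod 2) w) with hw | hw
    · exfalso
      obtain ⟨g, hg⟩ := (form_plus_iff 3 w).2 hw
      obtain ⟨φ, hφ, -⟩ := exists_action hS hπ (quadFormPlus 3 (ZMod 2)) g hg
      have h1 := φ.range.card_subgroup_dvd_card
      rw [hrange _ φ hφ, Classical.Orth.card_isometryGroup_plus 2] at h1
      norm_num [Classical.Orth.evenProd, Finset.prod_range_succ, ZMod.card] at h1
    · exact hw
  obtain ⟨g, hg⟩ := (form_minus_iff 2 w).2 hw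
  obtain ⟨φ, hφ, hcomp⟩ := exists_action hS hπ Q6 g hg
  have hR : φ.range = Omega (ZMod 2) Q6 := by
    have hc := hrange _ φ hφ
    have hidx : φ.range.index = 2 := by
      have h := φ.range.card_mul_index
      rw [hc, card_iso_minus] at h
      omega
    refine (Subgroup.eq_of_le_of_card_ge ?_ (by rw [hc, card_omega])).symm
    rw [Omega, commutator_def, Subgroup.commutator_le]
    intro a _ b _
    rw [commutatorElement_def]
    simp only [Subgroup.mul_mem_iff_of_index_two hidx, Subgroup.inv_mem_iff]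
    tauto
  let pr : G → V := fun a => if h : a ∈ P then g (π ⟨a, h⟩).toAdd else 0
  let act : G → Iso := fun c => if h : c ∈ (Subgroup.centralizer ({z} : Set G)) then φ ⟨c, h⟩ else 1
  have hpr : ∀ a (h : a ∈ P), pr a = g (π ⟨a, h⟩).toAdd := fun a h => dif_pos h
  have hact : ∀ c (h : c ∈ (Subgroup.centralizer ({z} : Set G))), act c = φ ⟨c, h⟩ := fun c h => dif_pos h
  refine ⟨pr, act, hS, hcP, ?_, ?_, ?_, ?_, ?_, ?_, ?_, ?_⟩
  · intro a ha b hb
    rw [hpr a ha, hpr b hb, hpr (a * b) (P.mul_mem ha hb), ← map_add, ← toAdd_mul, ← map_mul]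
    rfl
  · intro a ha
    rw [hpr a ha, g.map_eq_zero_iff]
    rw [show (π ⟨a, ha⟩).toAdd = 0 ↔ π ⟨a, ha⟩ = 1 from Iff.rfl, hπ.ker]
    refine Iff.trans ?_ (hS.mem_iff a)
    constructor
    · exact fun h => ⟨⟨a, ha⟩, h, rfl⟩
    · rintro ⟨b, hb, e⟩
      obtain rfl : b = ⟨a, ha⟩ := Subtype.ext e
      exact hb
  · intro v
    obtain ⟨a, ha⟩ := hπ.surj (Multiplicative.ofAdd (g.symm v))
    refine ⟨a, a.2, ?_⟩
    rw [hpr a a.2, Subtype.coe_eta, ha, toAdd_ofAdd, g.apply_symm_apply]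
  · intro a ha
    rw [hpr a ha, ← Q6_eq, Q6, ← hg]
    exact (hπ.sq ⟨a, ha⟩).symm.trans ⟨fun h => congrArg Subtype.val h, fun h => Subtype.ext h⟩
  · intro a b ha hb
    rw [hact a (mem_cent_iff.2 ha), hact b (mem_cent_iff.2 hb),
      hact (a * b) (mul_mem (mem_cent_iff.2 ha) (mem_cent_iff.2 hb)), ← map_mul]
    rfl
  · intro c hc a ha
    have hb : c * a * c⁻¹ ∈ P := (hS.normalized c hc a).1 ha
    rw [hact c (mem_cent_iff.2 hc), hpr a ha, hpr _ hb]
    exact (hcomp ⟨c, mem_cent_iff.2 hc⟩ ⟨a, ha⟩ ⟨_, hb⟩ rfl).symm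
  · intro c hc
    rw [hact c (mem_cent_iff.2 hc), ← MonoidHom.mem_ker, hφ, Subgroup.mem_subgroupOf]
  · intro f
    rw [← hR]
    constructor
    · rintro ⟨c, rfl⟩
      exact ⟨c, mem_cent_iff.1 c.2, hact c c.2⟩
    · rintro ⟨c, hc, rfl⟩
      exact ⟨⟨c, mem_cent_iff.2 hc⟩, (hact c _).symm⟩

end CfsgLib.SuzType
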