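import Cfsg.Agent.SuzType.Geometry

/-!
The standard position of an Eichler map in the elliptic six-dimensional space: finite facts.
-/

set_option autoImplicit false
set_option synthInstance.maxSize 2000

namespace CfsgLib.SuzType

/-- A vector congruent to `w` modulo the line of `e0`. -/
def near (x w : V) : Prop := x + w = 0 ∨ x + w = e0

instance (x w : V) : Decidable (near x w) := inferInstanceAs (Decidable (_ ∨ _))

theorem near_self (w : V) : near w w := Or.inl (vadd_self w)

theorem near_symm {x w : V} (h : near x w) : near w x := by rwa [near, add_comm]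

theorem near_trans {x y w : V} (h : near x y) (h' : near y w) : near x w := by
  have key : x + w = (x + y) + (y + w) := by
    rw [← add_assoc, vadd_cancel]
  rcases h with h | h <;> rcases h' with h' | h' <;> rw [near, key, h, h'] <;>
    simp [vadd_self]

/-- The perpendicular of the standard pair. -/
def inW (T x : V) : Prop := B x e0 = 0 ∧ B x T = 0

instance (T x : V) : Decidable (inW T x) := inferInstanceAs (Decidable (_ ∧ _))

theorem q_e0 : q e0 = 0 := by decide
theorem q_e2 : q e2 = 0 := by decide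
theorem q_e4 : q e4 = 1 := by decide
theorem B_e0_e2 : B e0 e2 = 0 := by decide
theorem B_e0_e4 : B e0 e4 = 0 := by decide
theorem e0_ne : e0 ≠ 0 := by decide

/-- An auxiliary anisotropic vector for a first move. -/
theorem exists_link_zero : ∀ s : V, q s = 0 → B s e0 = 0 → s ≠ 0 → s ≠ e0 →
    ∃ c : V, q c = 0 ∧ B c s = 1 ∧ B c e0 = 1 := by decide +kernel

/-- An auxiliary vector for a second move. -/
theorem exists_link_two : ∀ w : V, q w = 0 → B w e0 = 0 → B w e2 = 0 → ¬ near w 0 → ¬ near w e2 →
    ∃ c : V, q c = 0 ∧ B c e0 = 0 ∧ B c w = 1 ∧ B c e2 = 1 := by decide +kernel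

theorem exists_link_four : ∀ w : V, q w = 1 → B w e0 = 0 → B w e4 = 0 → ¬ near w e4 →
    ∃ c : V, q c = 1 ∧ B c e0 = 0 ∧ B c w = 1 ∧ B c e4 = 1 := by decide +kernel

/-- A totally singular invariant subspace through `e0` inside `e0⊥` is the line. -/
theorem exists_skew : ∀ w : V, q w = 0 → B w e0 = 0 → w ≠ 0 → w ≠ e0 →
    ∃ w' : V, q w' = 0 ∧ B w' e0 = 0 ∧ w' ≠ 0 ∧ w' ≠ e0 ∧ B w w' = 1 := by decide +kernel

theorem card_singular_perp : ∀ s : V, q s = 0 → s ≠ 0 →
    (Finset.univ.filter fun x : V => q x = 0 ∧ B x s = 0).card = 12 := by decide +kernel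

theorem card_perp : (Finset.univ.filter fun x : V => B x e0 = 0).card = 32 := by decide +kernel

theorem card_nonsingular_perp :
    (Finset.univ.filter fun x : V => q x = 1 ∧ B x e0 = 0).card = 20 := by decide +kernel

/-- Decomposition of the perpendicular in the singular case. -/
theorem inW_two : ∀ x : V, inW e2 x → ∃ w ∈ [(0 : V), e4, e5, e4 + e5],
    x + w = 0 ∨ x + w = e0 ∨ x + w = e2 ∨ x + w = e0 + e2 := by decide +kernel

theorem inW_four : ∀ x : V, inW e4 x → ∃ w ∈ [(0 : V), e2 + e4, e3 + e4, e2 + e3],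
    x + w = 0 ∨ x + w = e0 ∨ x + w = e4 ∨ x + w = e0 + e4 := by decide +kernel

/-- The span of the standard pair is the image of the map. -/
theorem range_two : ∀ d : V, (d = 0 ∨ d = e0 ∨ d = e2 ∨ d = e0 + e2) →
    ∃ y : V, E e0 e2 y + y = d := by decide +kernel

theorem range_four : ∀ d : V, (d = 0 ∨ d = e0 ∨ d = e4 ∨ d = e0 + e4) →
    ∃ y : V, E e0 e4 y + y = d := by decide +kernel

theorem inW_of_range_two : ∀ y : V, inW e2 (E e0 e2 y + y) := by decide +kernel
theorem inW_of_range_four : ∀ y : V, inW e4 (E e0 e4 y + y) := by decide +kernel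

theorem fixed_iff_four : ∀ x : V, E e0 e4 x = x ↔ inW e4 x := by decide +kernel
theorem fixed_iff_two : ∀ x : V, E e0 e2 x = x ↔ inW e2 x := by decide +kernel

/-- The unique singular vector of the image. -/
theorem singular_range_four : ∀ d : V, (d = 0 ∨ d = e0 ∨ d = e4 ∨ d = e0 + e4) → d ≠ 0 → q d = 0 →
    d = e0 := by decide +kernel

theorem range_four_cases : ∀ y : V, E e0 e4 y + y = 0 ∨ E e0 e4 y + y = e0 ∨
    E e0 e4 y + y = e4 ∨ E e0 e4 y + y = e0 + e4 := by decide +kernel

theorem near_range_four : ∀ y : V, near (E e0 e4 y + y) e4 → B y e0 = 1 := by decide +kernel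

theorem range_of_near_zero : ∀ y : V, B y e0 = 0 → near (E e0 e4 y + y) 0 := by decide +kernel

/-- Vectors completing a lift of the non-singular standard map to an involution. -/
theorem partner_iff : ∀ v : V, near (E e0 e4 v + v) e0 ∧ ¬ E e0 e4 v = v →
    B v e0 = 0 ∧ B v e4 = 1 := by decide +kernel

/-- The non-singular vector `a` and a singular vector `p` of the complement of a pair. -/
theorem exists_axis : ∀ v : V, q v = 1 → B v e0 = 0 → B v e4 = 1 →
    ∃ a p : V, q a = 1 ∧ B a e0 = 0 ∧ B a e4 = 0 ∧ B a v = 0 ∧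
      q p = 0 ∧ B p e0 = 0 ∧ B p e4 = 0 ∧ B p v = 0 ∧ B a p = 1 ∧
      (∀ x : V, q x = 0 → B x e0 = 0 → B x e4 = 0 → B x v = 0 → x ≠ 0 → x ≠ e0 →
        near x p ∨ near x (p + a)) ∧
      ∀ x : V, B x e0 = 0 → ∃ i j k l : ZMod 2, near x (i • e4 + j • v + k • a + l • p) := by
  decide +kernel

/-- An anisotropic plane orthogonal to a hyperbolic pair. -/
theorem exists_pair : ∀ v : V, q v = 0 → B v e0 = 0 → B v e4 = 1 →
    ∃ a b : V, q a = 1 ∧ q b = 1 ∧ B a b = 1 ∧ B a e0 = 0 ∧ B a e4 = 0 ∧ B a v = 0 ∧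
      B b e0 = 0 ∧ B b e4 = 0 ∧ B b v = 0 := by decide +kernel

/-- The dichotomy on the quotient of the perpendicular of the singular pair. -/
theorem inW_two_split : ∀ v : V, inW e2 v → q v = 1 → ∀ x : V, inW e2 x → ∀ y : V, inW e2 y →
    q x = q y → B x v = B y v →
    (x + y = 0 ∨ x + y = e0 ∨ x + y = e2 ∨ x + y = e0 + e2) ∨
    (x + y + v = 0 ∨ x + y + v = e0 ∨ x + y + v = e2 ∨ x + y + v = e0 + e2) := by
  decide +kernel

/-- The affine lemma on the quotient plane: a set invariant under an affine map of order three with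
linear part `(i, j) ↦ (j, i + j)`, containing zero and not everything, lies in one orbit. -/
theorem affine_orbit : ∀ (K : Bool × Bool → Bool) (v : Bool × Bool),
    K (false, false) = true →
    (∀ x, K x = true → K (xor x.2 v.1, xor (xor x.1 x.2) v.2) = true) →
    (∃ x, K x = false) →
    ∀ x, K x = true → x = (false, false) ∨ x = v ∨
      x = (xor v.2 v.1, xor (xor v.1 v.2) v.2) := by decide +kernel

end CfsgLib.SuzType
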